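import Cfsg.Agent.Lib.Geometric.SUThree.Singer.Stabiliser

/-!
The small overgroups of the torus normaliser in `SU₃(4)` and `SU₃(8)`: a group of order `1560`,
`16416` or `172368` with few involutions has a full root group.
-/

set_option autoImplicit false
set_option linter.unusedSectionVars false

namespace CfsgLib.Geometric.SUThree.Singer

open Matrix CfsgLib.Geometric

variable {F : Type*} [Field F]

/-- A root of the conjugation fixed equation; there are at most `q`. -/
lemma card_fixed_le [Finite F] {q : ℕ} (hq : 2 ≤ q) (σ : F ≃+* F) (hσ : ∀ x, σ x = x ^ q)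
    (S : Set F) (hS : ∀ x ∈ S, σ x = x) : Nat.card S ≤ q := by
  classical
  have := Fintype.ofFinite F
  have hP0 : (Polynomial.X ^ q - Polynomial.X : Polynomial F) ≠ 0 :=
    FiniteField.X_pow_card_sub_X_ne_zero F hq
  rw [Nat.card_eq_fintype_card, ← Set.toFinset_card]
  refine le_trans (Polynomial.card_le_degree_of_subset_roots
    (p := Polynomial.X ^ q - Polynomial.X) ?_)
    (FiniteField.X_pow_card_sub_X_natDegree_eq F hq).le
  intro x hx
  rw [Finset.mem_val, Set.mem_toFinset] at hx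
  rw [Polynomial.mem_roots hP0]
  simp [← hσ, hS x hx]

/-- The elements fixing the line of `u`. -/
def lineStab (u : Fin 3 → F) : Subgroup (GL (Fin 3) F) where
  carrier := {g | ∃ a : Fˣ, ap g u = (a : F) • u}
  one_mem' := ⟨1, by simp⟩
  mul_mem' := by
    rintro g h ⟨a, ha⟩ ⟨b, hb⟩
    exact ⟨a * b, by rw [ap_mul, hb, ap_smul, ha, smul_smul, Units.val_mul, mul_comm]⟩
  inv_mem' := by
    rintro g ⟨a, ha⟩
    refine ⟨a⁻¹, ?_⟩
    have h := congrArg (ap g⁻¹) ha
    rw [ap_inv_ap, ap_smul] at h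
    conv_rhs => rw [h, smul_smul, Units.inv_mul, one_smul]

lemma mem_lineStab_of_eigen {u : Fin 3 → F} (hu0 : u ≠ 0) {g : GL (Fin 3) F} {a : F}
    (h : ap g u = a • u) : g ∈ lineStab u := by
  have ha : a ≠ 0 := fun e => ap_ne_zero g hu0 (by rw [h, e, zero_smul])
  exact ⟨Units.mk0 a ha, h⟩

section

variable (M : Subgroup (GL (Fin 3) F)) {u : Fin 3 → F} (hu0 : u ≠ 0)
include hu0

/-- The eigenvalue on the line. -/
noncomputable def chi : (M ⊓ lineStab u : Subgroup (GL (Fin 3) F)) →* Fˣ :=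
  MonoidHom.mk' (fun g => Classical.choose (Subgroup.mem_inf.1 g.2).2) fun g h => by
    refine Units.ext (smul_left_injective F hu0 ?_)
    have e := Classical.choose_spec (Subgroup.mem_inf.1 (g * h).2).2
    have eg := Classical.choose_spec (Subgroup.mem_inf.1 g.2).2
    have eh := Classical.choose_spec (Subgroup.mem_inf.1 h.2).2
    refine e.symm.trans ?_
    rw [Subgroup.coe_mul, ap_mul]
    refine (congrArg _ eh).trans ?_
    rw [ap_smul]
    refine (congrArg _ eg).trans ?_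
    rw [smul_smul, Units.val_mul, mul_comm]

lemma chi_spec (g : (M ⊓ lineStab u : Subgroup (GL (Fin 3) F))) :
    ap (g : GL (Fin 3) F) u = (chi M hu0 g : F) • u :=
  Classical.choose_spec (Subgroup.mem_inf.1 g.2).2

end

variable [Fintype F] {q : ℕ} {σ : F ≃+* F} {f : (Fin 3 → F) → (Fin 3 → F) → F}

/-- The standing hypotheses. -/
structure Small (q : ℕ) (σ : F ≃+* F) (f : (Fin 3 → F) → (Fin 3 → F) → F)
    (M : Subgroup (GL (Fin 3) F)) : Prop where
  card : Fintype.card F = q ^ 2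
  conj : ∀ x, σ x = x ^ q
  skew : IsSkewForm σ f
  two : (2 : F) = 0
  le : M ≤ isom f ⊓ Cfsg.Geo.specialLinear (Fin 3) F
  few : Nat.card {s : M // s ≠ 1 ∧ s * s = 1} * (q ^ 2 - q + 1) ≤ Nat.card M

variable {M : Subgroup (GL (Fin 3) F)} (S : Small q σ f M)
include S

lemma Small.det {g : GL (Fin 3) F} (hg : g ∈ M) : (g : Matrix (Fin 3) (Fin 3) F).det = 1 :=
  (mem_specialLinear_iff _).1 (S.le hg).2

lemma Small.two_le : 2 ≤ q :=
  (Nat.one_lt_pow_iff two_ne_zero).1 (S.card ▸ Fintype.one_lt_card)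

lemma Small.neg_eq (x : F) : -x = x := by linear_combination -x * S.two

variable {u : Fin 3 → F} (hu : f u u = 0) (hu0 : u ≠ 0)

/-- The parameters of the transvections at `u` in the group. -/
def Small.params : AddSubgroup F where
  carrier := {c | σ c = c ∧ Unitary.T S.skew u c hu ∈ M}
  zero_mem' := ⟨map_zero σ, by rw [CfsgLib.ClassicalForms.T_zero S.skew]; exact one_mem _⟩
  add_mem' := fun {a b} ha hb => ⟨by rw [map_add, ha.1, hb.1], by
    rw [← CfsgLib.ClassicalForms.T_mul_T S.skew]; exact mul_mem ha.2 hb.2⟩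
  neg_mem' := fun {a} ha => by rw [S.neg_eq]; exact ha

lemma Small.card_params_le : Nat.card (S.params hu) ≤ q :=
  card_fixed_le S.two_le σ S.conj _ fun _ hx => hx.1

lemma Small.inX_of_full (h : Nat.card (S.params hu) = q) : Unitary.InX S.skew M u := by
  classical
  refine ⟨hu, fun _ c hc => ?_⟩
  by_contra hne
  have hle := card_fixed_le S.two_le σ S.conj (insert c ((S.params hu : AddSubgroup F) : Set F))
    (fun x hx => by
      rcases hx with rfl | hx
      · exact hc
      · exact hx.1)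
  rw [Nat.card_coe_set_eq, Set.ncard_insert_of_notMem (fun hm => hne hm.2) (Set.toFinite _),
    ← Nat.card_coe_set_eq] at hle
  change Nat.card (S.params hu) + 1 ≤ q at hle
  omega

include hu hu0

lemma Small.ker_pow_four {x : (M ⊓ lineStab u : Subgroup (GL (Fin 3) F))}
    (hx : x ∈ (chi M hu0).ker) : x ^ 4 = 1 := by
  refine Subtype.ext (gl_ext fun z => ?_)
  rw [Subgroup.coe_pow, OneMemClass.coe_one, ap_one]
  have hl : ((chi M hu0) x : F) = 1 := by rw [MonoidHom.mem_ker.1 hx]; rfl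
  have h := pow_four_eq S.skew S.two (S.le (Subgroup.mem_inf.1 x.2).1).1
    (S.det (Subgroup.mem_inf.1 x.2).1) hu hu0 (l := 1)
    (by rw [← hl]; exact chi_spec M hu0 x) (by simp) (by simp) z
  simpa using h

/-- The involutions of the kernel are the transvections at `u`. -/
lemma Small.card_sq_one :
    Nat.card {x : (chi M hu0).ker // x * x = 1} = Nat.card (S.params hu) := by
  classical
  have hT : ∀ c, ap (Unitary.T S.skew u c hu) u = u := fun c => by
    rw [Unitary.ap_T, hu, mul_zero, zero_smul, add_zero]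
  let φ : S.params hu → {x : (chi M hu0).ker // x * x = 1} := fun c =>
    ⟨⟨⟨Unitary.T S.skew u c.1 hu, c.2.2,
        mem_lineStab_of_eigen hu0 (a := 1) (by rw [hT, one_smul])⟩, by
        refine MonoidHom.mem_ker.2 (Units.ext (smul_left_injective F hu0 ?_))
        simp only [Units.val_one, one_smul]
        exact (chi_spec M hu0 _).symm.trans (hT _)⟩,
      Subtype.ext (Subtype.ext (by
        simp only [Subgroup.coe_mul, OneMemClass.coe_one]
        rw [CfsgLib.ClassicalForms.T_mul_T S.skew,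
          ← CfsgLib.ClassicalForms.T_zero S.skew hu]
        congr 1
        linear_combination c.1 * S.two))⟩
  refine (Nat.card_eq_of_bijective φ ⟨fun a b h => Subtype.ext ?_, fun x => ?_⟩).symm
  · exact T_param S.skew hu hu0 (congrArg (fun y => (y.1.1 : GL (Fin 3) F)) h)
  · obtain ⟨⟨⟨g, hgM, hgL⟩, hgk⟩, hsq⟩ := x
    by_cases h1 : g = 1
    · exact ⟨0, Subtype.ext (Subtype.ext (Subtype.ext (by
        show Unitary.T S.skew u 0 hu = g
        rw [h1, CfsgLib.ClassicalForms.T_zero S.skew])))⟩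
    obtain ⟨a, ha⟩ := id hgL
    obtain ⟨c, -, hc, he⟩ := exists_T_of_fix S.skew S.two hu hu0 (S.le hgM).1 h1
      (congrArg (fun y : (chi M hu0).ker => ((y.1 : GL (Fin 3) F))) hsq) ha
    exact ⟨⟨c, hc, he ▸ hgM⟩, Subtype.ext (Subtype.ext (Subtype.ext he.symm))⟩

/-- The conjugates of the transvections at `u` are few. -/
lemma Small.params_bound : (Nat.card (S.params hu) - 1) * (q ^ 2 - q + 1) ≤
    Nat.card (M ⊓ lineStab u : Subgroup (GL (Fin 3) F)) := by
  classical
  set K := (lineStab u).subgroupOf M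
  let φ : (M ⧸ K) × {c : S.params hu // c ≠ 0} → {s : M // s ≠ 1 ∧ s * s = 1} := fun p =>
    ⟨p.1.out * ⟨_, p.2.1.2.2⟩ * p.1.out⁻¹, fun h => p.2.2 (by
      have h' : (⟨Unitary.T S.skew u p.2.1.1 hu, p.2.1.2.2⟩ : M) = 1 := by
        rwa [mul_inv_eq_one, mul_eq_left] at h
      exact Subtype.ext (T_param S.skew hu hu0 ((congrArg Subtype.val h').trans
        (CfsgLib.ClassicalForms.T_zero S.skew hu).symm))), by
      have h' : (⟨Unitary.T S.skew u p.2.1.1 hu, p.2.1.2.2⟩ : M) *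
          ⟨Unitary.T S.skew u p.2.1.1 hu, p.2.1.2.2⟩ = 1 := by
        refine Subtype.ext ?_
        rw [Subgroup.coe_mul, CfsgLib.ClassicalForms.T_mul_T S.skew, OneMemClass.coe_one,
          ← CfsgLib.ClassicalForms.T_zero S.skew hu]
        congr 1
        linear_combination p.2.1.1 * S.two
      rw [conj_mul, h', mul_one, mul_inv_cancel]⟩
  have hφ : Function.Injective φ := by
    rintro ⟨x, c⟩ ⟨y, d⟩ h
    have h' : x.out * ⟨_, c.1.2.2⟩ * x.out⁻¹ = y.out * ⟨_, d.1.2.2⟩ * y.out⁻¹ :=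
      congrArg Subtype.val h
    set g := y.out⁻¹ * x.out with hg
    have h'' : g * ⟨_, c.1.2.2⟩ = ⟨_, d.1.2.2⟩ * g := by
      rw [hg, mul_assoc]
      calc y.out⁻¹ * (x.out * ⟨_, c.1.2.2⟩)
          = y.out⁻¹ * ((x.out * ⟨_, c.1.2.2⟩ * x.out⁻¹) * x.out) := by group
        _ = _ := by rw [h']; group
    have hxy : x = y := by
      rw [← QuotientGroup.out_eq' x, ← QuotientGroup.out_eq' y, eq_comm, QuotientGroup.eq]
      show ((g : M) : GL (Fin 3) F) ∈ lineStab u
      obtain ⟨⟨z, hz⟩, -⟩ := S.skew.nondegenerate u hu0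
      have e := congrArg (fun w : M => ap (w : GL (Fin 3) F) z) h''
      simp only [Subgroup.coe_mul, ap_mul, Unitary.ap_T S.skew, ap_add, ap_smul, add_right_inj] at e
      have hc0 : (c.1.1 : F) ≠ 0 := fun hc => c.2 (Subtype.ext hc)
      refine mem_lineStab_of_eigen hu0
        (a := (c.1.1 * f z u)⁻¹ * (d.1.1 * f (ap (g : GL (Fin 3) F) z) u)) ?_
      rw [← smul_smul, ← e, smul_smul, inv_mul_cancel₀ (mul_ne_zero hc0 hz), one_smul]
    subst hxy
    have e := mul_left_cancel (mul_right_cancel h')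
    exact Prod.ext rfl (Subtype.ext (Subtype.ext
      (T_param S.skew hu hu0 (congrArg Subtype.val e))))
  have h1 := Nat.card_le_card_of_injective φ hφ
  have hX : Nat.card {c : S.params hu // c ≠ 0} = Nat.card (S.params hu) - 1 := by
    rw [Nat.card_eq_fintype_card, Nat.card_eq_fintype_card, Fintype.card_subtype_compl,
      Fintype.card_subtype_eq]
  rw [Nat.card_prod, hX, ← Subgroup.index_eq_card] at h1
  have hK : Nat.card K = Nat.card (M ⊓ lineStab u : Subgroup (GL (Fin 3) F)) := by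
    rw [inf_comm]
    exact Nat.card_congr
      { toFun := fun g => ⟨g.1.1, g.2, g.1.2⟩
        invFun := fun g => ⟨⟨g.1, g.2.2⟩, g.2.1⟩
        left_inv := fun g => rfl
        right_inv := fun g => rfl }
  have h2 := (Nat.mul_le_mul_right (q ^ 2 - q + 1) h1).trans S.few
  rw [← K.card_mul_index, hK, mul_assoc, mul_comm _ K.index] at h2
  exact Nat.le_of_mul_le_mul_left h2 (Nat.pos_of_ne_zero Subgroup.index_ne_zero_of_finite)

omit hu hu0

/-- A point whose kernel is a Sylow two-subgroup. -/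
lemma Small.exists_point {a r : ℕ} (hM : Nat.card M = 2 ^ a * r) (hr : Odd r) (ha : 1 ≤ a) :
    ∃ (u : Fin 3 → F) (hu : f u u = 0) (hu0 : u ≠ 0),
      Nat.card (chi M hu0).ker = 2 ^ a ∧ 1 < Nat.card (S.params hu) := by
  classical
  have : Fact (Nat.Prime 2) := ⟨Nat.prime_two⟩
  obtain ⟨P⟩ : Nonempty (Sylow 2 M) := inferInstance
  have hr0 : r ≠ 0 := by rintro rfl; simp at hr
  have hP : Nat.card P = 2 ^ a := by
    have hfac : (Nat.card M).factorization 2 = a := by
      rw [hM, Nat.factorization_mul (by positivity) hr0, Finsupp.add_apply,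
        Nat.Prime.factorization_pow Nat.prime_two, Finsupp.single_eq_same,
        Nat.factorization_eq_zero_of_not_dvd (by
          rw [Nat.two_dvd_ne_zero, ← Nat.odd_iff]; exact hr), add_zero]
    rw [P.card_eq_multiplicity, hfac]
  have : Nontrivial (P : Subgroup M) := Finite.one_lt_card_iff_nontrivial.1 (by
    rw [show Nat.card (P : Subgroup M) = 2 ^ a from hP]
    exact Nat.one_lt_two_pow (by omega))
  have hnt : Nontrivial (Subgroup.center (P : Subgroup M)) := P.isPGroup'.center_nontrivial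
  obtain ⟨k, hk⟩ := (P.isPGroup'.to_subgroup (Subgroup.center (P : Subgroup M))).exists_card_eq
  obtain ⟨⟨t, htc⟩, ht⟩ := exists_prime_orderOf_dvd_card' 2 (hk ▸ dvd_pow_self 2 (fun h0 => by
    rw [h0, pow_zero] at hk
    exact hk.not_gt Finite.one_lt_card))
  rw [Subgroup.orderOf_mk] at ht
  have ht1 : ((t : M) : GL (Fin 3) F) ≠ 1 := fun h => by
    rw [show t = 1 from Subtype.ext (Subtype.ext h), orderOf_one] at ht
    norm_num at ht
  have ht2 : ((t : M) : GL (Fin 3) F) * ((t : M) : GL (Fin 3) F) = 1 := by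
    have := pow_orderOf_eq_one t
    rw [ht, pow_two] at this
    exact congrArg (fun x : (P : Subgroup M) => ((x : M) : GL (Fin 3) F)) this
  obtain ⟨u, c, hu, hu0, hc0, hc, he⟩ :=
    exists_T_of_sq S.skew S.two (S.le (t : M).2).1 ht1 ht2
  refine ⟨u, hu, hu0, ?_, ?_⟩
  · have h4 : IsPGroup 2 (chi M hu0).ker := fun x => ⟨2, Subtype.ext (by
      rw [Subgroup.coe_pow, OneMemClass.coe_one]
      exact S.ker_pow_four hu hu0 x.2)⟩
    obtain ⟨b, hb⟩ := h4.exists_card_eq
    have hdvd : 2 ^ b ∣ 2 ^ a * r := by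
      rw [← hb, ← hM]
      refine (Subgroup.card_subgroup_dvd_card _).trans ?_
      exact Subgroup.card_dvd_of_le inf_le_left
    have hba : 2 ^ b ∣ 2 ^ a := (Nat.Coprime.pow_left b (Nat.coprime_two_left.2 hr)).dvd_of_dvd_mul_right hdvd
    -- the Sylow subgroup fixes the vector
    have hpl : ∀ p : (P : Subgroup M), ∃ hm : ((p : M) : GL (Fin 3) F) ∈ M ⊓ lineStab u,
        (⟨_, hm⟩ : (M ⊓ lineStab u : Subgroup (GL (Fin 3) F))) ∈ (chi M hu0).ker := by
      intro p
      have hcm := congrArg (fun x : (P : Subgroup M) => ((x : M) : GL (Fin 3) F))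
        (Subgroup.mem_center_iff.1 htc p)
      simp only [Subgroup.coe_mul] at hcm
      rw [he] at hcm
      obtain ⟨l, hl⟩ := exists_eigen_of_commute S.skew hu hu0 hc0 hcm
      have hm : ((p : M) : GL (Fin 3) F) ∈ M ⊓ lineStab u :=
        ⟨(p : M).2, mem_lineStab_of_eigen hu0 hl⟩
      refine ⟨hm, MonoidHom.mem_ker.2 ?_⟩
      obtain ⟨j, hj⟩ := P.isPGroup' p
      have hpow : (⟨_, hm⟩ : (M ⊓ lineStab u : Subgroup (GL (Fin 3) F))) ^ 2 ^ j = 1 :=
        Subtype.ext (congrArg (fun x : (P : Subgroup M) => ((x : M) : GL (Fin 3) F)) hj)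
      set l' := chi M hu0 ⟨_, hm⟩
      have hl' : l' ^ 2 ^ j = 1 := by rw [← map_pow, hpow, map_one]
      have hch : CharP F 2 := CharTwo.of_one_ne_zero_of_two_eq_zero one_ne_zero S.two
      refine Units.ext ?_
      have h' : ((l' : F) - 1) ^ 2 ^ j = 0 := by
        rw [sub_pow_char_pow, one_pow, ← Units.val_pow_eq_pow_val, hl', Units.val_one, sub_self]
      exact sub_eq_zero.1 (pow_eq_zero_iff (pow_ne_zero j two_ne_zero) |>.1 h')
    have hle : 2 ^ a ≤ Nat.card (chi M hu0).ker := by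
      rw [← hP]
      refine Nat.card_le_card_of_injective (fun p => ⟨⟨_, (hpl p).1⟩, (hpl p).2⟩) fun p p' h => ?_
      exact Subtype.ext (Subtype.ext (congrArg (fun x : (chi M hu0).ker => (x.1 : GL (Fin 3) F)) h))
    rw [hb] at hle ⊢
    exact le_antisymm (Nat.le_of_dvd (by positivity) hba) hle
  · have hcm : c ∈ S.params hu := ⟨hc, he ▸ (t : M).2⟩
    exact Finite.one_lt_card_iff_nontrivial.2 ⟨⟨⟨c, hcm⟩, 0, fun h => hc0 (congrArg Subtype.val h)⟩⟩

include hu hu0

/-- The number of elements of order four in the kernel. -/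
lemma Small.card_four : Nat.card {x : (chi M hu0).ker // ¬ x * x = 1} + Nat.card (S.params hu) =
    Nat.card (chi M hu0).ker := by
  classical
  rw [← S.card_sq_one hu hu0, Nat.card_eq_fintype_card, Nat.card_eq_fintype_card,
    Nat.card_eq_fintype_card, Fintype.card_subtype_compl, Nat.sub_add_cancel (Fintype.card_subtype_le _)]

/-- An element with a prime power action on the elements of order four. -/
lemma Small.exists_fixed {p : ℕ} [Fact p.Prime] (y : (M ⊓ lineStab u : Subgroup (GL (Fin 3) F)))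
    (hy : ∀ e : (M ⊓ lineStab u : Subgroup (GL (Fin 3) F)), y ^ p * e = e * y ^ p)
    (hn : ¬ p ∣ Nat.card {x : (chi M hu0).ker // ¬ x * x = 1}) :
    ∃ a : F, ∀ z, ap ((y : GL (Fin 3) F) ^ 4) z = a • z := by
  classical
  set N := (chi M hu0).ker with hN
  let cj : MulAut N := MulAut.conjNormal y
  have hcj : ∀ x : N, x * x = 1 ↔ cj x * cj x = 1 := fun x => by
    rw [← map_mul, MulEquiv.map_eq_one_iff]
  let π : Equiv.Perm {x : N // ¬ x * x = 1} :=
    cj.toEquiv.subtypeEquiv fun x => not_congr (hcj x)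
  have hπ : π ^ p ^ 1 = 1 := by
    refine Equiv.ext fun x => Subtype.ext (Subtype.ext ?_)
    have hk : ∀ k : ℕ, (((π ^ k) x).1 : (M ⊓ lineStab u : Subgroup (GL (Fin 3) F))) =
        y ^ k * x.1 * (y ^ k)⁻¹ := by
      intro k
      induction k with
      | zero => simp
      | succ k ih =>
        rw [pow_succ' π, Equiv.Perm.mul_apply]
        show ((cj ((π ^ k) x).1 : N) : (M ⊓ lineStab u : Subgroup (GL (Fin 3) F))) = _
        rw [MulAut.conjNormal_apply, ih, pow_succ' y]
        group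
    rw [pow_one, hk, hy, mul_inv_cancel_right]
    rfl
  have hn' : ¬ p ∣ Fintype.card {x : N // ¬ x * x = 1} := by rwa [← Nat.card_eq_fintype_card]
  obtain ⟨⟨e, he⟩, hfix⟩ := Equiv.Perm.exists_fixed_point_of_prime hn' hπ
  have hfix' : y * e.1 * y⁻¹ = e.1 := by
    have := congrArg (fun w : {x : N // ¬ x * x = 1} =>
      (w.1 : (M ⊓ lineStab u : Subgroup (GL (Fin 3) F)))) hfix
    exact this
  refine pow_four_of_commute S.skew S.two
    (e := ((e.1 : (M ⊓ lineStab u : Subgroup (GL (Fin 3) F))) : GL (Fin 3) F))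
    (congrArg Subtype.val (S.ker_pow_four hu hu0 e.2))
    (fun h => he (Subtype.ext (Subtype.ext h))) ?_
  exact congrArg Subtype.val (mul_inv_eq_iff_eq_mul.1 hfix')

omit hu hu0

lemma Small.pow_three_of_scalar {g : GL (Fin 3) F} (hg : g ∈ M) {a : F}
    (h : ∀ z, ap g z = a • z) : g ^ 3 = 1 := by
  have he : (g : Matrix (Fin 3) (Fin 3) F) = a • 1 := ext_of_mulVec_single fun i => by
    rw [smul_mulVec, one_mulVec]; exact h _
  have hd := S.det hg
  rw [he, det_smul, det_one, mul_one, Fintype.card_fin] at hd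
  exact Units.ext (by rw [Units.val_pow_eq_pow_val, he, smul_pow, hd, one_pow, one_smul, Units.val_one])

omit S in
/-- An element of given order on the line with the same order. -/
lemma exists_order {G : Type*} [Group G] [Finite G] (χ : G →* Fˣ) {ℓ : ℕ}
    (h4 : ∀ x ∈ χ.ker, x ^ 4 = 1) (hl : Nat.Coprime ℓ 4) (hd : ℓ ∣ Nat.card χ.range) :
    ∃ y : G, y ^ ℓ = 1 ∧ orderOf (χ y) = ℓ := by
  obtain ⟨g, hg⟩ := IsCyclic.exists_ofOrder_eq_natCard (α := χ.range)
  obtain ⟨y₀, hy₀⟩ := (g ^ (Nat.card χ.range / ℓ)).2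
  have hl0 : ℓ ≠ 0 := fun h => by simp [h] at hl
  have ho : orderOf (χ y₀) = ℓ := by
    rw [hy₀, Subgroup.orderOf_coe, orderOf_pow_of_dvd (Nat.div_ne_zero_iff_of_dvd hd |>.2
      ⟨Nat.card_pos.ne', hl0⟩) (by rw [hg]; exact Nat.div_dvd_of_dvd hd), hg,
      Nat.div_div_self hd Nat.card_pos.ne']
  refine ⟨y₀ ^ 4, ?_, ?_⟩
  · rw [← pow_mul, mul_comm, pow_mul]
    exact h4 _ (MonoidHom.mem_ker.2 (by rw [map_pow, ← ho, pow_orderOf_eq_one]))
  · rw [map_pow, Nat.Coprime.orderOf_pow (ho.symm ▸ hl), ho]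

/-- The image of the eigenvalue. -/
lemma Small.range_dvd (hu0 : u ≠ 0) : Nat.card (chi M hu0).range ∣ q ^ 2 - 1 := by
  have := (chi M hu0).range.card_subgroup_dvd_card
  rwa [Nat.card_units, Nat.card_eq_fintype_card (α := F), S.card] at this

lemma Small.eig_pow {l : F} (hl : l * σ l = 1) : l ^ (q + 1) = 1 := by
  rwa [pow_succ', ← S.conj]

include hu hu0

/-- Scaling of the parameters by an element on the line. -/
lemma Small.scale_mem (y : (M ⊓ lineStab u : Subgroup (GL (Fin 3) F))) {c : F}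
    (hc : c ∈ S.params hu) : (chi M hu0 y : F) * σ (chi M hu0 y : F) * c ∈ S.params hu := by
  have hyM : (y : GL (Fin 3) F) ∈ M := (Subgroup.mem_inf.1 y.2).1
  have e : (y : GL (Fin 3) F) * Unitary.T S.skew u c hu * (y : GL (Fin 3) F)⁻¹ =
      Unitary.T S.skew u ((chi M hu0 y : F) * σ (chi M hu0 y : F) * c) hu := by
    rw [Unitary.conj_T S.skew (S.le hyM).1 hu]
    refine gl_ext fun x => ?_
    rw [Unitary.ap_T S.skew, Unitary.ap_T S.skew, chi_spec M hu0 y, Unitary.smul_right S.skew,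
      smul_smul]
    congr 2
    ring
  refine ⟨by rw [map_mul, map_mul, S.skew.involutive, hc.1]; ring, ?_⟩
  rw [← e]
  exact mul_mem (mul_mem hyM hc.2) (inv_mem hyM)

/-- A unique parameter bounds the kernel. -/
lemma Small.card_ker_le_eight (hx : Nat.card (S.params hu) = 2) :
    Nat.card (chi M hu0).ker ≤ 8 := by
  classical
  set χ := chi M hu0
  obtain ⟨x₀, y₀, hxy⟩ : ∃ a b : {y : χ.ker // y * y = 1}, a ≠ b := by
    have : Nontrivial {y : χ.ker // y * y = 1} := Finite.one_lt_card_iff_nontrivial.1 (by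
      rw [S.card_sq_one hu hu0, hx]; norm_num)
    exact exists_pair_ne _
  obtain ⟨t, ht⟩ : ∃ t : {y : χ.ker // y * y = 1}, t ≠ ⟨1, one_mul 1⟩ := by
    by_cases h : x₀ = ⟨1, one_mul 1⟩
    · exact ⟨y₀, fun e => hxy (h.trans e.symm)⟩
    · exact ⟨x₀, h⟩
  refine card_le_eight (t := t.1) (fun y => Subtype.ext (S.ker_pow_four hu hu0 y.2)) fun y hy => ?_
  by_contra hc
  push Not at hc
  have hsub : ({⟨1, one_mul 1⟩, t, ⟨y, hy⟩} : Finset {y : χ.ker // y * y = 1}).card ≤ 2 := by
    rw [← hx, ← S.card_sq_one hu hu0, Nat.card_eq_fintype_card]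
    exact Finset.card_le_univ _
  have h3 : ({⟨1, one_mul 1⟩, t, ⟨y, hy⟩} : Finset {y : χ.ker // y * y = 1}).card = 3 :=
    Finset.card_eq_three.2 ⟨_, _, _, Ne.symm ht, fun e => hc.1 (congrArg Subtype.val e).symm,
      fun e => hc.2 (congrArg Subtype.val e).symm, rfl⟩
  omega

omit hu hu0

/-- The data at the point of a Sylow two-subgroup without a full root group. -/
lemma Small.exists_data {a r : ℕ} (hM : Nat.card M = 2 ^ a * r) (hr : Odd r) (ha : 1 ≤ a)
    (hno : ∀ u : Fin 3 → F, u ≠ 0 → ¬ Unitary.InX S.skew M u) :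
    ∃ (u : Fin 3 → F) (hu : f u u = 0) (hu0 : u ≠ 0),
      1 < Nat.card (S.params hu) ∧ Nat.card (S.params hu) < q ∧
      (Nat.card (S.params hu) - 1) * (q ^ 2 - q + 1) ≤ 2 ^ a * Nat.card (chi M hu0).range ∧
      Nat.card (chi M hu0).range ∣ r ∧ Nat.card (chi M hu0).range ∣ q ^ 2 - 1 ∧
      Nat.card (S.params hu) ∣ q ^ 2 ∧ (Nat.card (S.params hu) = 2 → 2 ^ a ≤ 8) ∧
      Nat.card {x : (chi M hu0).ker // ¬ x * x = 1} + Nat.card (S.params hu) = 2 ^ a := by
  obtain ⟨u, hu, hu0, hQ, hX1⟩ := S.exists_point hM hr ha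
  have hML : Nat.card (M ⊓ lineStab u : Subgroup (GL (Fin 3) F)) =
      2 ^ a * Nat.card (chi M hu0).range := by
    rw [← (chi M hu0).ker.card_mul_index, Subgroup.index_ker, hQ]
  refine ⟨u, hu, hu0, hX1, lt_of_le_of_ne (S.card_params_le hu)
    (fun e => hno u hu0 (S.inX_of_full hu e)), hML ▸ S.params_bound hu hu0, ?_,
    S.range_dvd hu0, ?_, fun hx => hQ ▸ S.card_ker_le_eight hu hu0 hx,
    (S.card_four hu hu0).trans hQ⟩
  · have h1 : 2 ^ a * Nat.card (chi M hu0).range ∣ 2 ^ a * r := by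
      rw [← hML, ← hM]; exact Subgroup.card_dvd_of_le inf_le_left
    exact Nat.dvd_of_mul_dvd_mul_left (pow_pos two_pos a) h1
  · rw [← S.card, ← Nat.card_eq_fintype_card]
    exact (S.params hu).card_addSubgroup_dvd_card

include hu hu0

/-- With a single non-zero parameter the eigenvalues have norm one. -/
lemma Small.norm_of_two (hx : Nat.card (S.params hu) = 2)
    (y : (M ⊓ lineStab u : Subgroup (GL (Fin 3) F))) :
    (chi M hu0 y : F) * σ (chi M hu0 y : F) = 1 := by
  classical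
  obtain ⟨⟨c, hcm⟩, hcne⟩ : ∃ c : S.params hu, c ≠ 0 := by
    have : Nontrivial (S.params hu) := Finite.one_lt_card_iff_nontrivial.1 (by omega)
    exact exists_ne 0
  have hc0 : c ≠ 0 := fun e => hcne (Subtype.ext e)
  have hlc := S.scale_mem hu hu0 y hcm
  by_contra hne
  have hsub : ({0, ⟨c, hcm⟩, ⟨_, hlc⟩} : Finset (S.params hu)).card ≤ 2 := by
    rw [← hx, Nat.card_eq_fintype_card]
    exact Finset.card_le_univ _
  have h3 : ({0, ⟨c, hcm⟩, ⟨_, hlc⟩} : Finset (S.params hu)).card = 3 := by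
    refine Finset.card_eq_three.2 ⟨_, _, _, fun e => hc0 (congrArg Subtype.val e).symm,
      fun e => ?_, fun e => hne ?_, rfl⟩
    · have h0 : (chi M hu0 y : F) * σ (chi M hu0 y : F) = 0 :=
        (mul_eq_zero.1 (congrArg Subtype.val e).symm).resolve_right hc0
      simp at h0
    · refine mul_right_cancel₀ hc0 ?_
      rw [one_mul]
      exact (congrArg Subtype.val e).symm
  omega

omit hu hu0

lemma Small.not_order_four (hq : q = 4) (hc : Nat.card M = 1560)
    (hno : ∀ u : Fin 3 → F, u ≠ 0 → ¬ Unitary.InX S.skew M u) : False := by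
  obtain ⟨u, hu, hu0, h1, hlt, hb, -, hiq, hxd, -, hfour⟩ :=
    S.exists_data (a := 3) (r := 195) hc (by decide) (by norm_num) hno
  subst hq
  set i := Nat.card (chi M hu0).range
  have hx : Nat.card (S.params hu) = 2 :=
    (show ∀ x < 4, x ∣ 16 → 1 < x → x = 2 by decide) _ hlt hxd h1
  rw [hx] at hb hfour
  norm_num at hb hfour hiq
  obtain ⟨ℓ, hℓ, hℓd, hℓ4⟩ : ∃ ℓ, (ℓ = 3 ∨ ℓ = 5) ∧ ℓ ∣ i ∧ Nat.Coprime ℓ 4 := by
    by_cases h5 : 5 ∣ i
    · exact ⟨5, Or.inr rfl, h5, by norm_num⟩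
    · exact ⟨3, Or.inl rfl, (show ∀ i < 16, i ∣ 15 → 13 ≤ 8 * i → ¬ 5 ∣ i → 3 ∣ i by decide) i
        (Nat.lt_succ_of_le (Nat.le_of_dvd (by norm_num) hiq)) hiq hb h5, by norm_num⟩
  obtain ⟨y, hy, ho⟩ :=
    exists_order (chi M hu0) (fun z hz => S.ker_pow_four hu hu0 hz) hℓ4 hℓd
  have h5 : (chi M hu0 y) ^ 5 = 1 := Units.ext (S.eig_pow (S.norm_of_two hu hu0 hx y))
  obtain rfl : ℓ = 5 := by
    rcases hℓ with e | e
    · have := orderOf_dvd_of_pow_eq_one h5
      rw [ho, e] at this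
      norm_num at this
    · exact e
  have : Fact (Nat.Prime 5) := ⟨Nat.prime_five⟩
  obtain ⟨b, hb'⟩ := S.exists_fixed hu hu0 (p := 5) y
    (fun e => by rw [hy, one_mul, mul_one]) (by
      rw [show Nat.card {x : (chi M hu0).ker // ¬ x * x = 1} = 6 by omega]; norm_num)
  have h12 := S.pow_three_of_scalar (pow_mem (Subgroup.mem_inf.1 y.2).1 4) hb'
  have hy5 : (y : GL (Fin 3) F) ^ 5 = 1 := congrArg Subtype.val hy
  rw [← pow_mul] at h12
  have hy1 : y = 1 := Subtype.ext (by
    have := pow_gcd_eq_one.2 ⟨h12, hy5⟩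
    rwa [show Nat.gcd (4 * 3) 5 = 1 by norm_num, pow_one] at this)
  rw [hy1, map_one, orderOf_one] at ho
  norm_num at ho

lemma Small.params_eq_four (hq : q = 8) {u : Fin 3 → F} {hu : f u u = 0}
    (hxd : Nat.card (S.params hu) ∣ q ^ 2) (h1 : 1 < Nat.card (S.params hu))
    (hlt : Nat.card (S.params hu) < q) (h2 : Nat.card (S.params hu) ≠ 2) :
    Nat.card (S.params hu) = 4 := by
  subst hq
  exact (show ∀ x < 8, x ∣ 64 → 1 < x → x ≠ 2 → x = 4 by decide) _ hlt hxd h1 h2

lemma Small.not_order_eight (hq : q = 8) (hc : Nat.card M = 16416)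
    (hno : ∀ u : Fin 3 → F, u ≠ 0 → ¬ Unitary.InX S.skew M u) : False := by
  obtain ⟨u, hu, hu0, h1, hlt, hb, hir, hiq, hxd, h2, hfour⟩ :=
    S.exists_data (a := 5) (r := 513) hc (by decide) (by norm_num) hno
  have hx := S.params_eq_four hq hxd h1 hlt fun e => absurd (h2 e) (by norm_num)
  subst hq
  set i := Nat.card (chi M hu0).range with hi
  rw [hx] at hb hfour
  norm_num at hb hfour hiq
  have hi9 : i = 9 := by
    have h9 : i ∣ 9 := by simpa using Nat.dvd_gcd hiq hir
    exact (show ∀ i < 10, i ∣ 9 → 171 ≤ 32 * i → i = 9 by decide) i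
      (Nat.lt_succ_of_le (Nat.le_of_dvd (by norm_num) h9)) h9 hb
  obtain ⟨y, hy, ho⟩ := exists_order (chi M hu0) (fun z hz => S.ker_pow_four hu hu0 hz)
    (show Nat.Coprime 9 4 by norm_num) (hi9 ▸ dvd_refl i)
  have hy9 : (y : GL (Fin 3) F) ^ 9 = 1 := congrArg Subtype.val hy
  have h9 : ((chi M hu0 y : F)) ^ 9 = 1 := by
    rw [← Units.val_pow_eq_pow_val, ← ho, pow_orderOf_eq_one, Units.val_one]
  set l := (chi M hu0 y : F) ^ 3 with hl
  have hls : l * σ l = 1 := by
    rw [S.conj, hl, ← pow_mul, ← pow_add, show 3 + 3 * 8 = 9 * 3 by norm_num, pow_mul, h9, one_pow]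
  have hy3 : ∀ z, ap ((y : GL (Fin 3) F) ^ 3) z = l ^ 4 • z := by
    intro z
    have h := pow_four_eq S.skew S.two (S.le (pow_mem (Subgroup.mem_inf.1 y.2).1 3)).1
      (S.det (pow_mem (Subgroup.mem_inf.1 y.2).1 3)) hu hu0 (l := l)
      (by rw [hl, ← Units.val_pow_eq_pow_val, ← map_pow, ← Subgroup.coe_pow]; exact chi_spec M hu0 _)
      hls (by rw [hl, ← pow_mul]; exact h9) z
    rwa [← pow_mul, show 3 * 4 = 9 + 3 by norm_num, pow_add, hy9, one_mul] at h
  have : Fact (Nat.Prime 3) := ⟨Nat.prime_three⟩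
  obtain ⟨b, hb'⟩ := S.exists_fixed hu hu0 (p := 3) y
    (fun e => Subtype.ext (gl_ext fun z => by
      simp only [Subgroup.coe_mul, Subgroup.coe_pow, ap_mul, hy3, ap_smul]))
    (by rw [show Nat.card {x : (chi M hu0).ker // ¬ x * x = 1} = 28 by omega]; norm_num)
  have h12 := S.pow_three_of_scalar (pow_mem (Subgroup.mem_inf.1 y.2).1 4) hb'
  rw [← pow_mul] at h12
  have hy13 : y ^ 3 = 1 := Subtype.ext (by
    have := pow_gcd_eq_one.2 ⟨h12, hy9⟩
    rwa [show Nat.gcd (4 * 3) 9 = 3 by norm_num] at this)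
  have h3 : (chi M hu0 y) ^ 3 = 1 := by rw [← map_pow, hy13, map_one]
  have := orderOf_dvd_of_pow_eq_one h3
  rw [ho] at this
  norm_num at this

lemma Small.not_order_eight' (hq : q = 8) (hc : Nat.card M = 172368)
    (hno : ∀ u : Fin 3 → F, u ≠ 0 → ¬ Unitary.InX S.skew M u) : False := by
  obtain ⟨u, hu, hu0, h1, hlt, hb, -, hiq, hxd, h2, -⟩ :=
    S.exists_data (a := 4) (r := 10773) hc (by decide) (by norm_num) hno
  have hx := S.params_eq_four hq hxd h1 hlt fun e => absurd (h2 e) (by norm_num)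
  subst hq
  set i := Nat.card (chi M hu0).range with hi
  rw [hx] at hb
  norm_num at hb hiq
  have h7 : 7 ∣ i :=
    (show ∀ i < 64, i ∣ 63 → 171 ≤ 16 * i → 7 ∣ i by decide) i
      (Nat.lt_succ_of_le (Nat.le_of_dvd (by norm_num) hiq)) hiq hb
  obtain ⟨y, -, ho⟩ := exists_order (chi M hu0) (fun z hz => S.ker_pow_four hu hu0 hz)
    (show Nat.Coprime 7 4 by norm_num) h7
  obtain ⟨⟨c, hcm⟩, hcne⟩ : ∃ c : S.params hu, c ≠ 0 := by
    have : Nontrivial (S.params hu) := Finite.one_lt_card_iff_nontrivial.1 h1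
    exact exists_ne 0
  have hc0 : c ≠ 0 := fun e => hcne (Subtype.ext e)
  set m := (chi M hu0 y : F) * σ (chi M hu0 y : F) with hm
  have hiter : ∀ j : ℕ, m ^ j * c ∈ S.params hu := by
    intro j
    induction j with
    | zero => rwa [pow_zero, one_mul]
    | succ j ih => rw [pow_succ', mul_assoc]; exact S.scale_mem hu hu0 y ih
  have hmu : m = ((chi M hu0 y ^ 2 : Fˣ) : F) := by
    have h7' : (chi M hu0 y : F) ^ 7 = 1 := by
      rw [← Units.val_pow_eq_pow_val, ← ho, pow_orderOf_eq_one, Units.val_one]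
    rw [hm, S.conj, ← pow_succ', Units.val_pow_eq_pow_val,
      show 8 + 1 = 7 + 2 from rfl, pow_add, h7', one_mul]
  have ho2 : orderOf (chi M hu0 y ^ 2) = 7 := by
    rw [Nat.Coprime.orderOf_pow (by rw [ho]; norm_num), ho]
  let φ : Fin 7 → S.params hu := fun j => ⟨m ^ (j : ℕ) * c, hiter j⟩
  have hφ : Function.Injective φ := by
    intro i j hij
    have h1 := mul_right_cancel₀ hc0 (congrArg Subtype.val hij)
    rw [hmu, ← Units.val_pow_eq_pow_val, ← Units.val_pow_eq_pow_val] at h1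
    exact Fin.ext (pow_injOn_Iio_orderOf (by rw [Set.mem_Iio, ho2]; exact i.2)
      (by rw [Set.mem_Iio, ho2]; exact j.2) (Units.ext h1))
  have := Nat.card_le_card_of_injective φ hφ
  rw [Nat.card_fin] at this
  omega

/-- The exceptional orders give a full root group. -/
theorem Small.exists_inX (h : (q = 4 ∧ Nat.card M = 1560) ∨
    (q = 8 ∧ (Nat.card M = 16416 ∨ Nat.card M = 172368))) :
    ∃ u : Fin 3 → F, u ≠ 0 ∧ Unitary.InX S.skew M u := by
  by_contra hno
  push Not at hno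
  rcases h with ⟨hq, hc⟩ | ⟨hq, hc | hc⟩
  · exact S.not_order_four hq hc hno
  · exact S.not_order_eight hq hc hno
  · exact S.not_order_eight' hq hc hno

end CfsgLib.Geometric.SUThree.Singer
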