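import Cfsg.Agent.Lib.Geometric.SLThree.Singer.Index
import Cfsg.Agent.Lib.Geometric.ExtField.Normaliser
import Cfsg.Agent.Lib.Geometric.UnitaryVectors

/-!
A cubic field of matrices closed under adjoints for a unitary form: the adjoint is the power
`q³`, the isometries of determinant one in the field, and the order of the normaliser.
-/

set_option autoImplicit false
set_option linter.unusedSectionVars false

namespace CfsgLib.Geometric.SUThree.Singer

open Matrix Module

/-- In a finite cyclic group of order `a * b` an element killed by `a` is a `b`-th power. -/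
lemma exists_pow_eq {G : Type*} [CommGroup G] [Finite G] [IsCyclic G] {a b : ℕ}
    (hn : Nat.card G = a * b) {x : G} (hx : x ^ a = 1) : ∃ u : G, u ^ b = x := by
  obtain ⟨g, hg⟩ := IsCyclic.exists_monoid_generator (α := G)
  obtain ⟨i, rfl⟩ := Submonoid.mem_powers_iff x g |>.1 (hg x)
  have ho : orderOf g = a * b := by
    rw [← hn]
    exact orderOf_eq_card_of_forall_mem_zpowers fun y => by
      obtain ⟨n, rfl⟩ := Submonoid.mem_powers_iff y g |>.1 (hg y)
      exact ⟨n, zpow_natCast g n⟩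
  have ha : 0 < a := Nat.pos_of_ne_zero fun h => by simp [h, Nat.card_pos.ne'] at hn
  rw [← pow_mul, ← orderOf_dvd_iff_pow_eq_one, ho, mul_comm i] at hx
  obtain ⟨k, rfl⟩ := Nat.dvd_of_mul_dvd_mul_left ha hx
  exact ⟨g ^ k, by rw [← pow_mul, mul_comm]⟩

variable {F : Type*} [Field F] [Fintype F] {q : ℕ} {σ : F ≃+* F}
  {f : (Fin 3 → F) → (Fin 3 → F) → F}
  {E : Type*} [Field E] [Algebra F E] (ρ : E →ₐ[F] Matrix (Fin 3) (Fin 3) F)

/-- The standing hypotheses on the field of matrices and the form. -/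
structure Ctx (q : ℕ) (σ : F ≃+* F) (f : (Fin 3 → F) → (Fin 3 → F) → F) : Prop where
  finrank : finrank F E = 3
  card : Fintype.card F = q ^ 2
  conj : ∀ x, σ x = x ^ q
  skew : IsSkewForm σ f
  adj : ∀ e : E, ∃ e' : E, ∀ u v, f (ρ e *ᵥ u) v = f u (ρ e' *ᵥ v)

variable {ρ} (C : Ctx ρ q σ f)
include C

lemma Ctx.finiteE : Finite E :=
  have := SLThree.finite_ext C.finrank
  Module.finite_of_finite F

lemma Ctx.card_ext : Nat.card E = q ^ 6 := by
  have := SLThree.finite_ext C.finrank
  rw [Module.natCard_eq_pow_finrank (K := F), C.finrank, Nat.card_eq_fintype_card, C.card, ← pow_mul]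

lemma Ctx.two_le : 2 ≤ q :=
  (Nat.one_lt_pow_iff two_ne_zero).1 (C.card ▸ Fintype.one_lt_card)

lemma Ctx.pow_six (x : E) : x ^ (q ^ 6) = x := by
  have := C.finiteE
  let : Fintype E := Fintype.ofFinite E
  rw [← C.card_ext, Nat.card_eq_fintype_card, FiniteField.pow_card]

lemma Ctx.adj_unique {a b : E} (h : ∀ u v, f u (ρ a *ᵥ v) = f u (ρ b *ᵥ v)) : a = b := by
  refine SLThree.emb_injective ρ (ext_of_mulVec_single fun i => ?_)
  by_contra hne
  obtain ⟨u, hu⟩ := (C.skew.nondegenerate _ (sub_ne_zero.2 hne)).1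
  exact hu (by rw [Unitary.sub_right C.skew, h, sub_self])

/-- The adjoint is the power `q³`. -/
theorem Ctx.adj_eq (e : E) (u v : Fin 3 → F) : f (ρ e *ᵥ u) v = f u (ρ (e ^ q ^ 3) *ᵥ v) := by
  classical
  have := C.finiteE
  let : Fintype E := Fintype.ofFinite E
  have hf := C.skew
  have := SLThree.finite_ext C.finrank
  choose τ hτ using C.adj
  have hadd : ∀ a b, τ (a + b) = τ a + τ b := fun a b => C.adj_unique fun u v => by
    rw [← hτ, map_add, map_add, add_mulVec, add_mulVec, hf.add_left, Unitary.add_right hf, hτ, hτ]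
  have hmul : ∀ a b, τ (a * b) = τ a * τ b := fun a b => C.adj_unique fun u v => by
    rw [← hτ, map_mul, ← mulVec_mulVec, hτ, hτ, mulVec_mulVec, ← map_mul, mul_comm]
  have hmap : ∀ c : F, τ (algebraMap F E c) = algebraMap F E (c ^ q) := fun c =>
    C.adj_unique fun u v => by
    rw [← hτ, AlgHom.commutes, AlgHom.commutes, Algebra.algebraMap_eq_smul_one,
      Algebra.algebraMap_eq_smul_one, smul_mulVec, smul_mulVec, one_mulVec, one_mulVec,
      hf.smul_left, Unitary.smul_right hf, ← C.conj, hf.involutive]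
  have hinv : ∀ a, τ (τ a) = a := fun a => C.adj_unique fun u v => by
    rw [← hτ, hf.skew (ρ (τ a) *ᵥ u) v, ← hτ, ← hf.skew]
  let ψ : E →ₐ[F] E :=
    { toFun := fun a => τ a ^ q ^ 3
      map_one' := by
        have h1 : τ 1 = 1 := by
          rw [← map_one (algebraMap F E), hmap, one_pow, map_one]
        simp [h1]
      map_mul' := fun a b => by rw [hmul, mul_pow]
      map_zero' := by
        have h0 : τ 0 = 0 := by
          have := hadd 0 0
          rwa [add_zero, left_eq_add] at this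
        simp [h0, zero_pow (pow_ne_zero 3 (show q ≠ 0 by have := C.two_le; omega))]
      map_add' := fun a b => by
        obtain ⟨p, hp⟩ := CharP.exists E
        obtain ⟨pf, hpp⟩ := FiniteField.card E p
        have : Fact p.Prime := ⟨hpp.1⟩
        have hq : q ∣ p ^ (pf : ℕ) := by
          rw [← hpp.2, ← Nat.card_eq_fintype_card, C.card_ext]; exact dvd_pow_self q (by norm_num)
        obtain ⟨j, -, rfl⟩ := (Nat.dvd_prime_pow hpp.1).1 hq
        rw [hadd, ← pow_mul, add_pow_char_pow]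
      commutes' := fun c => by
        rw [hmap, ← map_pow, ← pow_mul]
        congr 1
        rw [show q * q ^ 3 = (q ^ 2) ^ 2 by ring, ← C.card, FiniteField.pow_card_pow] }
  have hψ : ∀ a, ψ a = τ a ^ q ^ 3 := fun a => rfl
  let e₀ : E ≃ₐ[F] E := AlgEquiv.ofBijective ψ
    ⟨ψ.toRingHom.injective, Finite.injective_iff_surjective.1 ψ.toRingHom.injective⟩
  have h2 : ∀ a, ψ (ψ a) = a := by
    intro a
    have hτpow : ∀ (n : ℕ) b, τ (b ^ n) = τ b ^ n := by
      intro n b
      induction n with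
      | zero => rw [pow_zero, pow_zero, ← map_one (algebraMap F E), hmap, one_pow, map_one]
      | succ n ih => rw [pow_succ, hmul, ih, pow_succ]
    rw [hψ, hψ, hτpow, hinv, ← pow_mul, ← pow_add, C.pow_six]
  have hone : e₀ = 1 := by
    have h3 : e₀ ^ 3 = 1 := by
      have := orderOf_dvd_natCard e₀
      rw [SLThree.card_galois C.finrank] at this
      exact orderOf_dvd_iff_pow_eq_one.1 this
    have h2' : e₀ ^ 2 = 1 := AlgEquiv.ext fun a => by rw [pow_two]; exact h2 a
    rwa [pow_succ, h2', one_mul] at h3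
  have key : τ e = e ^ q ^ 3 := by
    have := congrArg (fun g : E ≃ₐ[F] E => g e) hone
    change ψ e = e at this
    rw [hψ] at this
    conv_rhs => rw [← this]
    rw [← pow_mul, ← pow_add, C.pow_six]
  rw [← key]; exact hτ e u v

lemma Ctx.pow_q3_q3 (x : E) : (x ^ q ^ 3) ^ q ^ 3 = x := by
  rw [← pow_mul, ← pow_add, C.pow_six]

/-- Membership in the isometry group. -/
lemma Ctx.unitHom_mem_isom (k : Eˣ) :
    SLThree.unitHom ρ k ∈ isom f ↔ k ^ (q ^ 3 + 1) = 1 := by
  rw [Units.ext_iff, Units.val_pow_eq_pow_val, Units.val_one, mem_isom_iff]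
  constructor
  · intro h
    refine C.adj_unique fun u v => ?_
    have := h u v
    rw [ap_def, ap_def, SLThree.coe_unitHom, C.adj_eq, mulVec_mulVec, ← map_mul, ← pow_succ] at this
    rw [this, map_one, one_mulVec]
  · intro h u v
    rw [ap_def, ap_def, SLThree.coe_unitHom, C.adj_eq, mulVec_mulVec, ← map_mul, ← pow_succ, h,
      map_one, one_mulVec]

lemma Ctx.m_identities : (q ^ 2 - q + 1) * (q + 1) = q ^ 3 + 1 ∧
    (q ^ 2 - q + 1) * (q ^ 2 + q + 1) = q ^ 4 + q ^ 2 + 1 := by
  have := Nat.le_self_pow two_ne_zero q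
  constructor <;> zify [this] <;> ring

lemma Ctx.norm_eq (x : E) : algebraMap F E (Algebra.norm F x) = x ^ (q ^ 4 + q ^ 2 + 1) := by
  have := C.finiteE
  have := SLThree.finite_ext C.finrank
  rw [FiniteField.algebraMap_norm_eq_pow_sum, C.finrank, Nat.card_eq_fintype_card, C.card]
  congr 1
  rw [Finset.sum_range_succ, Finset.sum_range_succ, Finset.sum_range_one]
  ring

lemma Ctx.mem_both (k : Eˣ) :
    SLThree.unitHom ρ k ∈ isom f ⊓ Cfsg.Geo.specialLinear (Fin 3) F ↔
      k ^ (q ^ 2 - q + 1) = 1 := by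
  obtain ⟨i1, i2⟩ := C.m_identities
  rw [Subgroup.mem_inf, C.unitHom_mem_isom, SLThree.unitHom_mem_specialLinear ρ C.finrank,
    SLThree.mem_normOne, ← (algebraMap F E).injective.eq_iff, C.norm_eq, map_one,
    ← Units.val_pow_eq_pow_val, Units.val_eq_one]
  constructor
  · rintro ⟨h1, h2⟩
    have e : q ^ 4 + q ^ 2 + 1 = q * (q ^ 3 + 1) + (q ^ 2 - q + 1) := by
      have := Nat.le_self_pow two_ne_zero q
      zify [this]; ring
    rwa [e, pow_add, mul_comm q, pow_mul, h1, one_pow, one_mul] at h2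
  · intro h
    exact ⟨by rw [← i1, pow_mul, h, one_pow], by rw [← i2, pow_mul, h, one_pow]⟩

omit C in
/-- The isometries of determinant one in the field. -/
def cycU (ρ : E →ₐ[F] Matrix (Fin 3) (Fin 3) F) (q : ℕ) : Subgroup (GL (Fin 3) F) :=
  (powMonoidHom (α := Eˣ) (q ^ 2 - q + 1)).ker.map (SLThree.unitHom ρ)

lemma Ctx.cycU_le_cyc : cycU ρ q ≤ SLThree.cyc ρ := by
  rintro _ ⟨k, hk, rfl⟩
  exact ⟨k, (SLThree.unitHom_mem_specialLinear ρ C.finrank).1
    ((C.mem_both k).2 (MonoidHom.mem_ker.1 hk)).2, rfl⟩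

lemma Ctx.cycU_le_group : cycU ρ q ≤ isom f ⊓ Cfsg.Geo.specialLinear (Fin 3) F := by
  rintro _ ⟨k, hk, rfl⟩
  exact (C.mem_both k).2 (MonoidHom.mem_ker.1 hk)

lemma Ctx.card_cycU : Nat.card (cycU ρ q) = q ^ 2 - q + 1 := by
  have := C.finiteE
  rw [cycU, ← Nat.card_congr ((powMonoidHom (α := Eˣ) (q ^ 2 - q + 1)).ker.equivMapOfInjective _
    (SLThree.unitHom_injective ρ)).toEquiv, IsCyclic.card_powMonoidHom_ker, Nat.card_units,
    C.card_ext]
  refine Nat.gcd_eq_right ⟨(q + 1) * (q ^ 3 - 1), ?_⟩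
  rw [← mul_assoc, C.m_identities.1]
  rw [show q ^ 6 = (q ^ 3) ^ 2 by ring, ← one_pow 2, Nat.sq_sub_sq, one_pow]

end CfsgLib.Geometric.SUThree.Singer
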