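import Cfsg.Agent.Lib.Geometric.SUThree.Singer.Field

/-!
The normaliser of the cubic field in `SU₃(q)` has order `3 (q² - q + 1)`, and the index of it in
an overgroup is one modulo the order of the projective torus.
-/

set_option autoImplicit false
set_option linter.unusedSectionVars false

namespace CfsgLib.Geometric.SUThree.Singer

open Matrix Module

variable {F : Type*} [Field F] [Fintype F] {q : ℕ} {σ : F ≃+* F}
  {f : (Fin 3 → F) → (Fin 3 → F) → F}
  {E : Type*} [Field E] [Algebra F E] {ρ : E →ₐ[F] Matrix (Fin 3) (Fin 3) F}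
  (C : Ctx ρ q σ f)
include C

omit C in
/-- The group of the statement. -/
abbrev grp (f : (Fin 3 → F) → (Fin 3 → F) → F) : Subgroup (GL (Fin 3) F) :=
  isom f ⊓ Cfsg.Geo.specialLinear (Fin 3) F

omit C in
/-- The normaliser in it. -/
abbrev nrm (ρ : E →ₐ[F] Matrix (Fin 3) (Fin 3) F) (f : (Fin 3 → F) → (Fin 3 → F) → F) :
    Subgroup (GL (Fin 3) F) :=
  Cfsg.Geo.subalgebraNormalizer ρ.range ⊓ grp f

/-- Every field automorphism is induced inside the group. -/
theorem Ctx.exists_induce (s : E ≃ₐ[F] E) :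
    ∃ g ∈ grp f, ∀ e, (g : Matrix (Fin 3) (Fin 3) F) * ρ e = ρ (s e) * g := by
  classical
  have := C.finiteE
  let : Fintype E := Fintype.ofFinite E
  have hf := C.skew
  have h3 := C.finrank
  obtain ⟨v, hv⟩ : ∃ v : Fin 3 → F, v ≠ 0 := exists_ne 0
  set Φ := SLThree.orbEquiv ρ h3 v hv with hΦ
  set L : E → F := fun c => f v (ρ c *ᵥ v) with hL
  have hform : ∀ a b, f (Φ a) (Φ b) = L (a ^ q ^ 3 * b) := fun a b => by
    rw [hΦ, SLThree.orbEquiv_apply, SLThree.orbEquiv_apply, C.adj_eq, mulVec_mulVec, ← map_mul]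
  let T : E →ₗ[F] F :=
    { toFun := fun c => σ (L c)
      map_add' := fun a b => by
        simp only [hL, map_add, add_mulVec, Unitary.add_right hf]
      map_smul' := fun c a => by
        simp only [hL, map_smul, smul_mulVec, Unitary.smul_right hf, map_mul, hf.involutive,
          RingHom.id_apply, smul_eq_mul] }
  have hTa : ∀ c, T c = σ (L c) := fun c => rfl
  have hTconj : ∀ c, T (c ^ q ^ 3) = -σ (T c) := by
    intro c
    rw [hTa, hTa, hf.involutive]
    show σ (f v (ρ (c ^ q ^ 3) *ᵥ v)) = -f v (ρ c *ᵥ v)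
    rw [← C.adj_eq]
    linear_combination hf.skew v (ρ c *ᵥ v)
  have hT : T ≠ 0 := by
    intro h
    obtain ⟨w, hw⟩ := (hf.nondegenerate v hv).2
    obtain ⟨c, rfl⟩ := Φ.surjective w
    refine hw ?_
    have h1 : σ (L c) = 0 := LinearMap.congr_fun h c
    have h2 : L c = 0 := by simpa using h1
    simpa [hL, hΦ] using h2
  obtain ⟨e, he⟩ := ExtF.exists_mul_rep hT (T.comp s.symm.toLinearMap)
  have he' : ∀ c, T (s c * e) = T c := fun c => by
    rw [he]; simp
  have huniq : ∀ e' : E, (∀ c, T (s c * e') = T c) → e' = e := by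
    intro e' h
    by_contra hne
    refine hT (LinearMap.ext fun a => ?_)
    have h1 := h (s.symm (a / (e' - e)))
    have h2 := he' (s.symm (a / (e' - e)))
    rw [AlgEquiv.apply_symm_apply] at h1 h2
    have h3 : T (a / (e' - e) * e' - a / (e' - e) * e) = 0 := by rw [map_sub, h1, h2, sub_self]
    rwa [← mul_sub, div_mul_cancel₀ _ (sub_ne_zero.2 hne)] at h3
  have heq : e ^ q ^ 3 = e := by
    refine huniq _ fun c => ?_
    have h1 : s c * e ^ q ^ 3 = (s (c ^ q ^ 3) * e) ^ q ^ 3 := by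
      rw [mul_pow, map_pow, C.pow_q3_q3]
    rw [h1, hTconj, he', hTconj, map_neg, hf.involutive, neg_neg]
  have he0 : e ≠ 0 := fun h => hT (LinearMap.ext fun c => by
    have := he' c
    rw [h, mul_zero, map_zero] at this
    exact this.symm)
  have hq := C.two_le
  have hq3 : 1 ≤ q ^ 3 := Nat.one_le_pow _ _ (by omega)
  have hcard : Nat.card Eˣ = (q ^ 3 - 1) * (q ^ 3 + 1) := by
    rw [Nat.card_units, C.card_ext, mul_comm, ← Nat.sq_sub_sq, one_pow, ← pow_mul]
  obtain ⟨u, hu⟩ : ∃ u : Eˣ, u ^ (q ^ 3 + 1) = Units.mk0 e he0 := by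
    refine exists_pow_eq hcard (Units.ext ?_)
    rw [Units.val_pow_eq_pow_val, Units.val_mk0, Units.val_one]
    refine mul_left_cancel₀ he0 ?_
    rw [← pow_succ', Nat.sub_add_cancel hq3, heq, mul_one]
  set g₀ : GL (Fin 3) F := ofEquiv ((Φ.symm.trans s.toLinearEquiv).trans Φ) with hg₀
  have hg₀Φ : ∀ x, ap g₀ (Φ x) = Φ (s x) := fun x => by rw [hg₀, ap_ofEquiv]; simp
  have hΦmul : ∀ a b : E, ρ a *ᵥ Φ b = Φ (a * b) := fun a b => by
    rw [hΦ, SLThree.orbEquiv_apply, SLThree.orbEquiv_apply, map_mul, mulVec_mulVec]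
  set g := SLThree.unitHom ρ u * g₀ with hg
  have hgΦ : ∀ x, ap g (Φ x) = Φ ((u : E) * s x) := fun x => by
    rw [hg, ap_mul, hg₀Φ, ap_def, SLThree.coe_unitHom, hΦmul]
  have hgf : g ∈ isom f := by
    rw [mem_isom_iff]
    intro x y
    obtain ⟨a, rfl⟩ := Φ.surjective x
    obtain ⟨b, rfl⟩ := Φ.surjective y
    rw [hgΦ, hgΦ, hform, hform]
    refine σ.injective ?_
    show T _ = T _
    rw [← he' (a ^ q ^ 3 * b)]
    congr 1
    have hu' : (u : E) ^ (q ^ 3 + 1) = e := by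
      simpa using congrArg Units.val hu
    rw [map_mul, map_pow, mul_pow, ← hu', pow_succ]
    ring
  have hcomm : ∀ c, (g : Matrix (Fin 3) (Fin 3) F) * ρ c = ρ (s c) * g := fun c => by
    refine ext_of_mulVec_single fun i => ?_
    obtain ⟨y, hy⟩ := Φ.surjective (Pi.single i 1)
    rw [← hy, ← mulVec_mulVec, ← mulVec_mulVec]
    change ap g (ρ c *ᵥ Φ y) = ρ (s c) *ᵥ ap g (Φ y)
    rw [hΦmul, hgΦ, hgΦ, hΦmul, map_mul s]
    congr 1
    ring
  -- correct the determinant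
  set δ := (g : Matrix (Fin 3) (Fin 3) F).det with hδ
  have hδn : δ * δ ^ q = 1 := by rw [← C.conj]; exact Unitary.det_norm hf hgf
  have hδ0 : δ ≠ 0 := fun h => by simp [h] at hδn
  set x : Eˣ := (Units.map (algebraMap F E : F →* E) (Units.mk0 δ hδ0))⁻¹ with hx
  have hxq : x ^ (q + 1) = 1 := by
    rw [hx, inv_pow, inv_eq_one, Units.ext_iff, Units.val_pow_eq_pow_val, Units.coe_map,
      Units.val_mk0, Units.val_one, MonoidHom.coe_coe, ← map_pow, pow_succ', hδn, map_one]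
  obtain ⟨b, hb⟩ : ∃ b, (q + 1) * b = (q ^ 3 - 1) * (q ^ 3 + 1) :=
    ⟨(q ^ 3 - 1) * (q ^ 2 - q + 1), by rw [← C.m_identities.1]; ring⟩
  obtain ⟨w, hw⟩ := exists_pow_eq (hcard.trans hb.symm) hxq
  set k : Eˣ := w ^ (q ^ 3 - 1) with hk
  have hkm : k ^ (q ^ 2 - q + 1) = x := by
    rw [← hw, hk, ← pow_mul]
    congr 1
    refine Nat.eq_of_mul_eq_mul_left (show 0 < q + 1 by omega) ?_
    rw [hb, ← C.m_identities.1]
    ring
  have hkU : SLThree.unitHom ρ k ∈ isom f := by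
    rw [C.unitHom_mem_isom, hk, ← pow_mul, ← hcard, pow_card_eq_one']
  refine ⟨SLThree.unitHom ρ k * g, ⟨mul_mem hkU hgf, ?_⟩, fun c => ?_⟩
  · show _ ∈ Cfsg.Geo.specialLinear (Fin 3) F
    rw [mem_specialLinear_iff, Units.val_mul, det_mul, SLThree.coe_unitHom,
      SLThree.det_emb ρ h3]
    apply (algebraMap F E).injective
    rw [map_mul, C.norm_eq, map_one, ← C.m_identities.2, pow_mul, ← Units.val_pow_eq_pow_val, hkm]
    have hxx : x ^ (q ^ 2 + q + 1) = x := by
      rw [show q ^ 2 + q + 1 = (q + 1) * q + 1 by ring, pow_succ, pow_mul, hxq, one_pow, one_mul]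
    rw [← Units.val_pow_eq_pow_val, hxx, hx, Units.val_inv_eq_inv_val, Units.coe_map,
      Units.val_mk0, MonoidHom.coe_coe]
    exact inv_mul_cancel₀ (by simpa using hδ0)
  · rw [Units.val_mul, SLThree.coe_unitHom, mul_assoc, hcomm, ← mul_assoc, ← map_mul, mul_comm,
      map_mul, mul_assoc]

/-- The order of the normaliser. -/
theorem Ctx.card_nrm : Nat.card (nrm ρ f) = 3 * (q ^ 2 - q + 1) := by
  classical
  have := C.finiteE
  choose π hπ using fun g : nrm ρ f => (SLThree.mem_normalizer_iff ρ).1 g.2.1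
  have huniq : ∀ (g : nrm ρ f) (τ : E ≃ₐ[F] E),
      (∀ e, ((g : GL (Fin 3) F) : Matrix (Fin 3) (Fin 3) F) * ρ e = ρ (τ e) * (g : GL (Fin 3) F)) →
      π g = τ := fun g τ hτ => AlgEquiv.ext fun e => SLThree.emb_injective ρ
    ((g : GL (Fin 3) F).isUnit.mul_right_cancel ((hπ g e).symm.trans (hτ e)))
  let μN : nrm ρ f →* (E ≃ₐ[F] E) := MonoidHom.mk' π fun a b => huniq _ _ fun e => by
    rw [Subgroup.coe_mul, Units.val_mul, mul_assoc, hπ b e, ← mul_assoc, hπ a, mul_assoc]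
    rfl
  have hker : ∀ g : nrm ρ f, g ∈ μN.ker ↔ (g : GL (Fin 3) F) ∈ cycU ρ q := by
    intro g
    rw [MonoidHom.mem_ker]
    constructor
    · intro h
      obtain ⟨k, hk⟩ := SLThree.mem_range_of_commute ρ C.finrank (g := g) fun e => by
        rw [hπ g e, show π g = 1 from h]; rfl
      exact ⟨k, MonoidHom.mem_ker.2 ((C.mem_both k).1 (hk ▸ g.2.2)), hk⟩
    · rintro ⟨k, -, hk⟩
      refine huniq _ _ fun e => ?_
      rw [← hk, SLThree.coe_unitHom, AlgEquiv.one_apply, ← map_mul, ← map_mul, mul_comm]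
  have hsurj : Function.Surjective μN := by
    intro s
    obtain ⟨g, hg, hc⟩ := C.exists_induce s
    exact ⟨⟨g, (SLThree.mem_normalizer_iff ρ).2 ⟨s, hc⟩, hg⟩, huniq _ _ hc⟩
  have hle : cycU ρ q ≤ nrm ρ f :=
    le_inf (C.cycU_le_cyc.trans (SLThree.cyc_le_normalizer ρ)) C.cycU_le_group
  rw [← μN.ker.card_mul_index, Subgroup.index_ker, MonoidHom.range_eq_top.2 hsurj,
    Subgroup.card_top, SLThree.card_galois C.finrank, mul_comm]
  congr 1
  rw [← C.card_cycU]
  exact Nat.card_congr ⟨fun g => ⟨_, (hker g.1).1 g.2⟩,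
    fun g => ⟨⟨g.1, hle g.2⟩, (hker _).2 g.2⟩, fun g => rfl, fun g => rfl⟩

/-- The index is one modulo the projective torus order. -/
theorem Ctx.index_modEq {M : Subgroup (GL (Fin 3) F)} (hNM : nrm ρ f ≤ M) (hMG : M ≤ grp f)
    {d m : ℕ} (hd : ∀ t : ℕ, t ∣ q ^ 2 - q + 1 → t ∣ 9 → t ∣ d) (hdm : d * m = q ^ 2 - q + 1) :
    (nrm ρ f).relIndex M ≡ 1 [MOD m] := by
  have := C.finiteE
  have hle : cycU ρ q ≤ nrm ρ f :=
    le_inf (C.cycU_le_cyc.trans (SLThree.cyc_le_normalizer ρ)) C.cycU_le_group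
  have hCM : cycU ρ q ≤ M := hle.trans hNM
  set D := (cycU ρ q).subgroupOf M
  set K := (nrm ρ f).subgroupOf M
  have hcyc : IsCyclic (cycU ρ q) := isCyclic_of_surjective
    ((powMonoidHom (α := Eˣ) (q ^ 2 - q + 1)).ker.equivMapOfInjective _
      (SLThree.unitHom_injective ρ)) (MulEquiv.surjective _)
  have hcyc' : IsCyclic D := isCyclic_of_surjective
    (Subgroup.subgroupOfEquivOfLe hCM).symm (MulEquiv.surjective _)
  have hcard : Nat.card D = q ^ 2 - q + 1 := by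
    rw [Nat.card_congr (Subgroup.subgroupOfEquivOfLe hCM).toEquiv, C.card_cycU]
  refine SLThree.card_modEq_one (C := D) (X := M ⧸ K) m ((1 : M) : M ⧸ K) (fun c => ?_)
    fun x hx => ?_
  · change (((c : M) * 1 : M) : M ⧸ K) = _
    rw [mul_one, QuotientGroup.eq, mul_one]
    exact inv_mem (hle c.2)
  obtain ⟨g, rfl⟩ := QuotientGroup.mk_surjective x
  set T := MulAction.stabilizer D (g : M ⧸ K)
  have hgN : (g : GL (Fin 3) F) ∉ Cfsg.Geo.subalgebraNormalizer ρ.range := fun h => hx (by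
    rw [QuotientGroup.eq, mul_one]
    exact inv_mem (show (g : GL (Fin 3) F) ∈ nrm ρ f from ⟨h, hMG g.2⟩))
  have h9 : ∀ t ∈ T, t ^ 9 = 1 := by
    intro t ht
    have h1 : ((((t : M) * g : M)) : M ⧸ K) = (g : M ⧸ K) := ht
    rw [QuotientGroup.eq] at h1
    have h2 : ((t : M) * g)⁻¹ * g ∈ (nrm ρ f).subgroupOf M := h1
    rw [← inv_mem_iff] at h2
    simp only [_root_.mul_inv_rev, inv_inv, ← mul_assoc] at h2
    exact Subtype.ext (Subtype.ext
      (SLThree.pow_nine_eq_one ρ C.finrank (hMG g.2).2 hgN (C.cycU_le_cyc t.2) h2.1))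
  have hT9 : Nat.card T ∣ 9 := by
    rw [← IsCyclic.exponent_eq_card]
    exact Monoid.exponent_dvd_of_forall_pow_eq_one fun t => Subtype.ext (h9 _ t.2)
  have h1 := T.card_mul_index
  rw [hcard, MulAction.index_stabilizer, ← hdm, ← Nat.card_coe_set_eq] at h1
  obtain ⟨k, hk⟩ := hd _ (hcard ▸ T.card_subgroup_dvd_card) hT9
  rw [hk, mul_assoc] at h1
  exact ⟨k, (Nat.eq_of_mul_eq_mul_left Nat.card_pos h1).trans (mul_comm k m)⟩

end CfsgLib.Geometric.SUThree.Singer
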