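import Cfsg.Agent.Lib.Geometric.SUThree.Basic
import Cfsg.Agent.Lib.ClassicalForms.Unitary.Simple

/-!
In characteristic two: involutions of a three-dimensional unitary group are transvections, and
the elements fixing an isotropic line, through their eigenvalue on it.
-/

set_option autoImplicit false
set_option linter.unusedSectionVars false

namespace CfsgLib.Geometric.SUThree.Singer

open Matrix CfsgLib.Geometric

variable {F : Type*} [Field F] {σ : F ≃+* F} {f : (Fin 3 → F) → (Fin 3 → F) → F}

lemma ap_pow_four (x : GL (Fin 3) F) (z : Fin 3 → F) :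
    ap (x ^ 4) z = ap x (ap x (ap x (ap x z))) := by
  simp only [pow_succ', pow_zero, mul_one, ap_mul]

variable (hf : IsSkewForm σ f)
include hf

/-- An isometry `x ↦ x + φ x • v` is a unitary transvection. -/
lemma eq_T_of_apply {g : GL (Fin 3) F} (hg : g ∈ isom f) (hg1 : g ≠ 1) {v : Fin 3 → F}
    {φ : (Fin 3 → F) →ₗ[F] F} (hφv : φ v = 0) (hgv : ∀ x, ap g x = x + φ x • v) :
    ∃ (c : F) (hv : f v v = 0), v ≠ 0 ∧ c ≠ 0 ∧ σ c = c ∧ g = Unitary.T hf v c hv := by
  have hv0 : v ≠ 0 := fun h => hg1 (gl_ext fun x => by rw [hgv, h, smul_zero, add_zero, ap_one])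
  obtain ⟨x₀, hx₀⟩ : ∃ x, φ x ≠ 0 := by
    by_contra hc
    push Not at hc
    exact hg1 (gl_ext fun x => by rw [hgv, hc, zero_smul, add_zero, ap_one])
  have hid : ∀ x y, φ x * f v y + σ (φ y) * f x v + φ x * σ (φ y) * f v v = 0 := by
    intro x y
    have h : f (ap g x) (ap g y) = f x y := hg x y
    rw [hgv, hgv, hf.add_left, Unitary.add_right hf, Unitary.add_right hf, hf.smul_left,
      hf.smul_left, Unitary.smul_right hf, Unitary.smul_right hf] at h
    linear_combination h
  have hvv : f v v = 0 := by
    have := hid x₀ v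
    rw [hφv, map_zero, zero_mul, add_zero, mul_zero, zero_mul, add_zero] at this
    exact (mul_eq_zero.1 this).resolve_left hx₀
  obtain ⟨⟨y₁, hy₁⟩, ⟨y₀, hy₀⟩⟩ := hf.nondegenerate v hv0
  set c : F := -σ (φ y₀) / f v y₀ with hc
  have hφ : ∀ x, φ x = c * f x v := by
    intro x
    have := hid x y₀
    rw [hvv, mul_zero, add_zero] at this
    rw [hc]; field_simp
    linear_combination this
  have hσc : σ c = c := by
    have h := hid y₁ y₁
    rw [hvv, mul_zero, add_zero, hφ, map_mul] at h
    have hs : f v y₁ = -σ (f y₁ v) := hf.skew v y₁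
    rw [hs] at h
    have h' : f y₁ v * σ (f y₁ v) * (σ c - c) = 0 := by linear_combination h
    exact sub_eq_zero.1 ((mul_eq_zero.1 h').resolve_left
      (mul_ne_zero hy₁ ((map_ne_zero_iff _ σ.injective).2 hy₁)))
  exact ⟨c, hvv, hv0, fun h => hx₀ (by rw [hφ, h, zero_mul]), hσc,
    gl_ext fun x => by rw [hgv, Unitary.ap_T hf, hφ]⟩

/-- The parameter of a transvection is determined. -/
lemma T_param {u : Fin 3 → F} (hu : f u u = 0) (hu0 : u ≠ 0) {c d : F}
    (h : Unitary.T hf u c hu = Unitary.T hf u d hu) : c = d := by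
  obtain ⟨⟨y, hy⟩, -⟩ := hf.nondegenerate u hu0
  have e := congrArg (fun g => ap g y) h
  simp only [Unitary.ap_T hf, add_right_inj] at e
  exact mul_right_cancel₀ hy (smul_left_injective F hu0 e)

/-- An element commuting with a transvection fixes the line of its centre. -/
lemma exists_eigen_of_commute {u : Fin 3 → F} (hu : f u u = 0) (hu0 : u ≠ 0) {c : F} (hc : c ≠ 0)
    {p : GL (Fin 3) F} (h : p * Unitary.T hf u c hu = Unitary.T hf u c hu * p) :
    ∃ a : F, ap p u = a • u := by
  obtain ⟨⟨y, hy⟩, -⟩ := hf.nondegenerate u hu0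
  have e := congrArg (fun g => ap g y) h
  simp only [ap_mul, Unitary.ap_T hf, ap_add, ap_smul, add_right_inj] at e
  exact ⟨(c * f y u)⁻¹ * (c * f (ap p y) u), by
    rw [← smul_smul, ← e, smul_smul, inv_mul_cancel₀ (mul_ne_zero hc hy), one_smul]⟩

variable (h2 : (2 : F) = 0)
include h2

/-- An involution is a transvection. -/
lemma exists_T_of_sq [Finite F] {t : GL (Fin 3) F} (ht : t ∈ isom f) (h1 : t ≠ 1) (hsq : t * t = 1) :
    ∃ (v : Fin 3 → F) (c : F) (hv : f v v = 0), v ≠ 0 ∧ c ≠ 0 ∧ σ c = c ∧
      t = Unitary.T hf v c hv := by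
  classical
  set N : (Fin 3 → F) →ₗ[F] (Fin 3 → F) :=
    Matrix.toLin' (t : Matrix (Fin 3) (Fin 3) F) - LinearMap.id with hN
  have hNa : ∀ x, N x = ap t x - x := fun x => rfl
  have hNN : ∀ x, N (N x) = 0 := by
    intro x
    rw [hNa, hNa, ap_sub, ← ap_mul, hsq, ap_one]
    funext i
    simp only [Pi.sub_apply, Pi.zero_apply]
    linear_combination (x i - ap t x i) * h2
  have hle : LinearMap.range N ≤ LinearMap.ker N := by
    rintro _ ⟨x, rfl⟩; exact hNN x
  have hfin := N.finrank_range_add_finrank_ker
  rw [Module.finrank_fin_fun] at hfin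
  have hmono := Submodule.finrank_mono hle
  have hr : Module.finrank F (LinearMap.range N) ≤ 1 := by omega
  obtain ⟨⟨v, hv⟩, hspan⟩ := finrank_le_one_iff.1 hr
  choose φ hφ using fun x => hspan ⟨N x, LinearMap.mem_range_self N x⟩
  have hv0 : v ≠ 0 := by
    rintro rfl
    refine h1 (gl_ext fun x => ?_)
    have h := congrArg Subtype.val (hφ x)
    simp only [SetLike.val_smul, smul_zero] at h
    rw [hNa] at h
    rw [ap_one]
    exact sub_eq_zero.1 h.symm
  have hφ' : ∀ x, N x = φ x • v := fun x => (congrArg Subtype.val (hφ x)).symm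
  let φl : (Fin 3 → F) →ₗ[F] F :=
    { toFun := φ
      map_add' := fun a b => smul_left_injective F hv0 (by
        simp only [add_smul, ← hφ', map_add])
      map_smul' := fun a b => smul_left_injective F hv0 (by
        simp only [RingHom.id_apply, smul_eq_mul, ← smul_smul, ← hφ', map_smul]) }
  have hφv : φl v = 0 := by
    refine smul_left_injective F hv0 ?_
    obtain ⟨x, rfl⟩ := hv
    show φ (N x) • N x = (0 : F) • N x
    rw [← hφ', hNN, zero_smul]
  obtain ⟨c, hvv, -, hc, hσ, he⟩ := eq_T_of_apply hf ht h1 hφv fun x => by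
    show ap t x = x + φ x • v
    rw [← hφ', hNa, add_sub_cancel]
  exact ⟨v, c, hvv, hv0, hc, hσ, he⟩

/-- An involution fixing an isotropic line has its centre on the line. -/
lemma exists_T_of_fix [Finite F] {u : Fin 3 → F} (hu : f u u = 0) (hu0 : u ≠ 0) {t : GL (Fin 3) F}
    (ht : t ∈ isom f) (h1 : t ≠ 1) (hsq : t * t = 1) {a : F} (ha : ap t u = a • u) :
    ∃ c : F, c ≠ 0 ∧ σ c = c ∧ t = Unitary.T hf u c hu := by
  obtain ⟨v, c, hv, hv0, hc, hσ, rfl⟩ := exists_T_of_sq hf h2 ht h1 hsq
  have huv : f u v = 0 := by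
    by_contra hne
    rw [Unitary.ap_T hf] at ha
    have e : v = ((a - 1) / (c * f u v)) • u := by
      have : (c * f u v) • v = (a - 1) • u := by
        rw [sub_smul, one_smul, ← ha, add_sub_cancel_left]
      rw [div_eq_inv_mul, ← smul_smul, ← this, smul_smul, inv_mul_cancel₀ (mul_ne_zero hc hne),
        one_smul]
    refine hne ?_
    rw [e, Unitary.smul_right hf, hu, mul_zero]
  obtain ⟨e, he⟩ := exists_smul_of_orth hf hu hu0 hv huv
  have he0 : e ≠ 0 := fun h => hv0 (by rw [he, h, zero_smul])
  refine ⟨c * σ e * e, mul_ne_zero (mul_ne_zero hc ((map_ne_zero_iff _ σ.injective).2 he0)) he0,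
    by rw [map_mul, map_mul, hf.involutive, hσ]; ring, gl_ext fun x => ?_⟩
  rw [Unitary.ap_T hf, Unitary.ap_T hf, he, Unitary.smul_right hf, smul_smul]
  congr 2
  ring

/-- The polynomial relation of an element fixing an isotropic line with eigenvalue `l` of norm one,
for `l ^ 3 = 1`. -/
lemma pow_four_eq [Finite F] {x : GL (Fin 3) F} (hx : x ∈ isom f)
    (hdet : (x : Matrix (Fin 3) (Fin 3) F).det = 1)
    {u : Fin 3 → F} (hu : f u u = 0) (hu0 : u ≠ 0) {l : F} (hxu : ap x u = l • u)
    (hn : l * σ l = 1) (h3 : l ^ 3 = 1) (z : Fin 3 → F) :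
    ap (x ^ 4) z = l ^ 4 • z := by
  classical
  obtain ⟨w, hw, hwu⟩ := exists_partner hf hu hu0
  obtain ⟨a, hau, haw, haa, hdec⟩ := exists_frame hf hu hw hwu
  have hl : l ≠ 0 := fun h => by simp [h] at h3
  have hsl : σ l ≠ 0 := (map_ne_zero_iff _ σ.injective).2 hl
  have hfx : ∀ y, f (ap x y) u * σ l = f y u := fun y => by
    have h : f (ap x y) (ap x u) = f y u := hx y u
    rw [hxu, Unitary.smul_right hf, mul_comm] at h
    exact h
  set ν := f (ap x w) u with hν
  have hνl : ν = l := by
    have h := hfx w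
    rw [hwu] at h
    refine mul_right_cancel₀ hsl ?_
    rw [h, hn]
  set μ := f (ap x a) a / f a a with hμ
  obtain ⟨α, hα⟩ : ∃ α, ap x a = α • u + μ • a := by
    refine ⟨-f (ap x a) w, (hdec (ap x a)).trans ?_⟩
    have : f (ap x a) u = 0 := by
      have h := hfx a
      rw [hau] at h
      exact (mul_eq_zero.1 h).resolve_right hsl
    rw [this, zero_smul, add_zero]
  obtain ⟨β, γ, hβ⟩ : ∃ β γ, ap x w = β • u + l • w + γ • a :=
    ⟨_, _, by rw [← hνl]; exact hdec (ap x w)⟩
  -- the middle eigenvalue from the determinant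
  have hμl : μ = l := by
    have huw : f u w = -1 := by rw [hf.skew, hwu, map_one]
    have hli : LinearIndependent F ![u, a, w] := by
      rw [Fintype.linearIndependent_iff]
      intro g hg
      simp only [Fin.sum_univ_three, Matrix.cons_val_zero, Matrix.cons_val_one,
        Matrix.cons_val_two, Matrix.tail_cons, Matrix.head_cons] at hg
      have e1 := congrArg (fun y => f y u) hg
      simp [hf.add_left, hf.smul_left, hu, hau, hwu, Unitary.zero_left hf] at e1
      have e2 := congrArg (fun y => f y w) hg
      simp [hf.add_left, hf.smul_left, haw, hw, huw, Unitary.zero_left hf] at e2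
      rw [e1, e2] at hg
      intro i
      fin_cases i
      · exact e2
      · refine (smul_eq_zero.1 (show g 1 • a = 0 by simpa using hg)).resolve_right fun h => haa ?_
        rw [h]; exact Unitary.zero_left hf _
      · exact e1
    set b := basisOfLinearIndependentOfCardEqFinrank hli (by simp) with hbdef
    have hb : ∀ i, b i = ![u, a, w] i := fun i => by
      rw [hbdef, coe_basisOfLinearIndependentOfCardEqFinrank]
    have hd := LinearMap.det_toMatrix b (Matrix.toLin' (x : Matrix (Fin 3) (Fin 3) F))
    rw [LinearMap.det_toLin', hdet, Matrix.det_fin_three] at hd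
    have hA : ∀ i j, LinearMap.toMatrix b b (Matrix.toLin' (x : Matrix (Fin 3) (Fin 3) F)) i j =
        b.repr (ap x (b j)) i := fun i j => LinearMap.toMatrix_apply b b _ i j
    have hcol : ∀ c₀ c₁ c₂ : F, b.repr (c₀ • u + c₁ • a + c₂ • w) =
        Finsupp.single 0 c₀ + Finsupp.single 1 c₁ + Finsupp.single 2 c₂ := fun c₀ c₁ c₂ => by
      rw [show u = b 0 by rw [hb]; rfl, show a = b 1 by rw [hb]; rfl, show w = b 2 by rw [hb]; rfl,
        map_add, map_add, map_smul, map_smul, map_smul, b.repr_self, b.repr_self, b.repr_self,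
        Finsupp.smul_single, Finsupp.smul_single, Finsupp.smul_single, smul_eq_mul, smul_eq_mul,
        smul_eq_mul, mul_one, mul_one, mul_one]
    have c0 : b.repr (ap x (b 0)) =
        Finsupp.single 0 l + Finsupp.single 1 0 + Finsupp.single 2 0 := by
      rw [show b 0 = u by rw [hb]; rfl, hxu,
        show l • u = l • u + (0 : F) • a + (0 : F) • w by simp, hcol]
    have c1 : b.repr (ap x (b 1)) =
        Finsupp.single 0 α + Finsupp.single 1 μ + Finsupp.single 2 0 := by
      rw [show b 1 = a by rw [hb]; rfl, hα,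
        show α • u + μ • a = α • u + μ • a + (0 : F) • w by simp, hcol]
    have c2 : b.repr (ap x (b 2)) =
        Finsupp.single 0 β + Finsupp.single 1 γ + Finsupp.single 2 l := by
      rw [show b 2 = w by rw [hb]; rfl, hβ,
        show β • u + l • w + γ • a = β • u + γ • a + l • w by abel, hcol]
    simp only [hA, c0, c1, c2] at hd
    simp +decide at hd
    have h4 : l ^ 3 * μ = l := by linear_combination l * hd
    rwa [h3, one_mul] at h4
  set N : (Fin 3 → F) →ₗ[F] (Fin 3 → F) :=
    Matrix.toLin' (x : Matrix (Fin 3) (Fin 3) F) - l • LinearMap.id with hN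
  have hNa : ∀ y, N y = ap x y - l • y := fun y => rfl
  have hN3 : ∀ y, N (N (N y)) = 0 := by
    intro y
    have hNu : N u = 0 := by rw [hNa, hxu, sub_self]
    have hNaa : N a = α • u := by rw [hNa, hα, hμl, add_sub_cancel_right]
    have hNw : N w = β • u + γ • a := by rw [hNa, hβ]; abel
    rw [hdec y]
    simp only [map_add, map_smul, hNu, hNaa, hNw, smul_zero, add_zero, zero_add]
  have hap : ∀ y, ap x y = N y + l • y := fun y => by rw [hNa, sub_add_cancel]
  have hap2 : ∀ y, ap x (ap x y) = N (N y) + l ^ 2 • y := by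
    intro y
    rw [hap, hap y, map_add, map_smul]
    funext i
    simp only [Pi.add_apply, Pi.smul_apply, smul_eq_mul]
    linear_combination (l * N y i) * h2
  rw [ap_pow_four, hap2, hap2 z, map_add, map_smul, map_add, map_smul, hN3]
  funext i
  simp only [Pi.add_apply, Pi.smul_apply, Pi.zero_apply, smul_eq_mul]
  linear_combination (l ^ 2 * N (N z) i) * h2

/-- An element commuting with one whose nilpotent part is regular has scalar fourth power. -/
lemma pow_four_of_commute {e x : GL (Fin 3) F} (he4 : e ^ 4 = 1) (he2 : e * e ≠ 1)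
    (hxe : x * e = e * x) : ∃ a : F, ∀ z, ap (x ^ 4) z = a • z := by
  classical
  set N : (Fin 3 → F) →ₗ[F] (Fin 3 → F) :=
    Matrix.toLin' (e : Matrix (Fin 3) (Fin 3) F) - LinearMap.id with hN
  have hNa : ∀ y, N y = ap e y - y := fun y => rfl
  have hNN : ∀ y, N (N y) = ap (e * e) y - y := by
    intro y
    rw [hNa, hNa, ap_sub, ← ap_mul]
    funext i
    simp only [Pi.sub_apply]
    linear_combination (y i - ap e y i) * h2
  have hN4 : ∀ y, N (N (N (N y))) = 0 := by
    intro y
    rw [hNN, hNN, ap_sub, ← ap_mul, show e * e * (e * e) = 1 from by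
      rw [← he4]; simp only [pow_succ, pow_zero, one_mul, mul_assoc], ap_one]
    funext i
    simp only [Pi.sub_apply, Pi.zero_apply]
    linear_combination (y i - ap (e * e) y i) * h2
  obtain ⟨z, hz⟩ : ∃ z, N (N z) ≠ 0 := by
    by_contra h
    push Not at h
    refine he2 (gl_ext fun y => ?_)
    rw [ap_one]
    have := h y
    rw [hNN] at this
    exact sub_eq_zero.1 this
  have hxN : ∀ y, ap x (N y) = N (ap x y) := fun y => by
    rw [hNa, hNa, ap_sub, ← ap_mul, hxe, ap_mul]
  -- the vectors `z, N z, N² z` form a basis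
  have hli3 : N (N (N z)) = 0 := by
    by_contra h3
    have hli : LinearIndependent F ![z, N z, N (N z), N (N (N z))] := by
      rw [Fintype.linearIndependent_iff]
      intro g hg
      simp only [Fin.sum_univ_four, Matrix.cons_val_zero, Matrix.cons_val_one, Matrix.cons_val_two,
        Matrix.tail_cons, Matrix.head_cons, Matrix.cons_val_three] at hg
      have e0 : g 0 = 0 := by
        have := congrArg (fun y => N (N (N y))) hg
        simp only [map_add, map_smul, map_zero, hN4, smul_zero, add_zero] at this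
        exact (smul_eq_zero.1 this).resolve_right h3
      rw [e0, zero_smul, zero_add] at hg
      have e1 : g 1 = 0 := by
        have := congrArg (fun y => N (N y)) hg
        simp only [map_add, map_smul, map_zero, hN4, smul_zero, add_zero] at this
        exact (smul_eq_zero.1 this).resolve_right h3
      rw [e1, zero_smul, zero_add] at hg
      have e2 : g 2 = 0 := by
        have := congrArg (fun y => N y) hg
        simp only [map_add, map_smul, map_zero, hN4, smul_zero, add_zero] at this
        exact (smul_eq_zero.1 this).resolve_right h3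
      rw [e2, zero_smul, zero_add] at hg
      intro i
      fin_cases i
      · exact e0
      · exact e1
      · exact e2
      · exact (smul_eq_zero.1 hg).resolve_right h3
    simpa using hli.fintype_card_le_finrank
  have hli : LinearIndependent F ![z, N z, N (N z)] := by
    rw [Fintype.linearIndependent_iff]
    intro g hg
    simp only [Fin.sum_univ_three, Matrix.cons_val_zero, Matrix.cons_val_one, Matrix.cons_val_two,
      Matrix.tail_cons, Matrix.head_cons] at hg
    have e0 : g 0 = 0 := by
      have := congrArg (fun y => N (N y)) hg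
      simp only [map_add, map_smul, map_zero, hli3, smul_zero, add_zero] at this
      exact (smul_eq_zero.1 this).resolve_right hz
    rw [e0, zero_smul, zero_add] at hg
    have e1 : g 1 = 0 := by
      have := congrArg (fun y => N y) hg
      simp only [map_add, map_smul, map_zero, hli3, smul_zero, add_zero] at this
      exact (smul_eq_zero.1 this).resolve_right hz
    rw [e1, zero_smul, zero_add] at hg
    intro i
    fin_cases i
    · exact e0
    · exact e1
    · exact (smul_eq_zero.1 hg).resolve_right hz
  set b := basisOfLinearIndependentOfCardEqFinrank hli (by simp) with hbdef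
  have hb : ∀ i, b i = ![z, N z, N (N z)] i := fun i => by
    rw [hbdef, coe_basisOfLinearIndependentOfCardEqFinrank]
  obtain ⟨a₀, a₁, a₂, ha⟩ : ∃ a₀ a₁ a₂ : F,
      ap x z = a₀ • z + a₁ • N z + a₂ • N (N z) := by
    refine ⟨b.repr (ap x z) 0, b.repr (ap x z) 1, b.repr (ap x z) 2, ?_⟩
    conv_lhs => rw [← b.sum_repr (ap x z)]
    simp [Fin.sum_univ_three, hb]
  have hpoly : ∀ y, ap x y = a₀ • y + a₁ • N y + a₂ • N (N y) := by
    intro y
    rw [← b.sum_repr y]
    simp only [Fin.sum_univ_three, ap_add, ap_smul, map_add, map_smul, hb, Matrix.cons_val_zero,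
      Matrix.cons_val_one, Matrix.cons_val_two, Matrix.tail_cons, Matrix.head_cons, hxN, ha, hli3,
      map_zero, smul_zero]
    module
  have hN3 : ∀ y, N (N (N y)) = 0 := by
    intro y
    rw [← b.sum_repr y]
    simp only [Fin.sum_univ_three, map_add, map_smul, hb, Matrix.cons_val_zero, Matrix.cons_val_one,
      Matrix.cons_val_two, Matrix.tail_cons, Matrix.head_cons, hli3, smul_zero, add_zero]
  have hsq : ∀ y, ap x (ap x y) = a₀ ^ 2 • y + a₁ ^ 2 • N (N y) := by
    intro y
    simp only [hpoly, map_add, map_smul, hN3, map_zero, smul_zero]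
    funext i
    simp only [Pi.add_apply, Pi.smul_apply, Pi.zero_apply, smul_eq_mul]
    linear_combination (a₀ * a₁ * N y i + a₀ * a₂ * N (N y) i) * h2
  refine ⟨a₀ ^ 4, fun y => ?_⟩
  rw [ap_pow_four, hsq, hsq y]
  simp only [map_add, map_smul, hN3, map_zero, smul_zero]
  funext i
  simp only [Pi.add_apply, Pi.smul_apply, Pi.zero_apply, smul_eq_mul]
  linear_combination (a₁ ^ 2 * a₀ ^ 2 * N (N y) i) * h2

omit hf h2 in
/-- A group of exponent four with a unique involution has order at most eight. -/
lemma card_le_eight {Q : Type*} [Group Q] [Finite Q] (h4 : ∀ x : Q, x ^ 4 = 1) {t : Q}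
    (ht : ∀ x : Q, x * x = 1 → x = 1 ∨ x = t) : Nat.card Q ≤ 8 := by
  classical
  have : Fintype Q := Fintype.ofFinite Q
  have h4' : ∀ x : Q, x * x * (x * x) = 1 := fun x => by
    rw [← h4 x]; simp only [pow_succ, pow_zero, one_mul, mul_assoc]
  have hsq : ∀ x : Q, x * x = 1 ∨ x * x = t := fun x => ht _ (h4' x)
  by_cases hne : ∀ x : Q, x * x = 1
  · have : (Finset.univ : Finset Q) ⊆ {1, t} := fun x _ => by simpa using ht x (hne x)
    rw [Nat.card_eq_fintype_card]
    exact (Finset.card_le_card this).trans ((Finset.card_insert_le _ _).trans (by simp))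
  push Not at hne
  obtain ⟨a, ha⟩ := hne
  have ha2 : a * a = t := (hsq a).resolve_left ha
  have htc : ∀ x : Q, x * t = t * x := fun x => by
    rcases hsq x with h | h
    · rcases ht x h with rfl | rfl
      · simp
      · rfl
    · rw [← h, mul_assoc]
  have htt : t * t = 1 := by rw [← ha2]; exact h4' a
  have anti : ∀ x y : Q, x * x = t → y * y = t → x * y * (x * y) = t → y * x = t * (x * y) := by
    intro x y hx hy hxy
    have hx' : x⁻¹ = t * x := inv_eq_of_mul_eq_one_right (by
      rw [← mul_assoc, htc x, mul_assoc, hx, htt])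
    have hy' : y⁻¹ = t * y := inv_eq_of_mul_eq_one_right (by
      rw [← mul_assoc, htc y, mul_assoc, hy, htt])
    calc y * x = x⁻¹ * (x * y * (x * y)) * y⁻¹ := by group
      _ = t * x * t * (t * y) := by rw [hxy, hx', hy']
      _ = t * (x * y) := by rw [mul_assoc, ← mul_assoc t t, htt, one_mul, mul_assoc]
  by_cases hb : ∀ b : Q, b ∈ ({1, t, a, t * a} : Finset Q)
  · rw [Nat.card_eq_fintype_card]
    refine (Finset.card_le_card (s := Finset.univ) fun x _ => hb x).trans (le_trans ?_ (show 4 ≤ 8 by norm_num))
    exact (Finset.card_insert_le _ _).trans (Nat.add_le_add_right ((Finset.card_insert_le _ _).trans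
      (Nat.add_le_add_right ((Finset.card_insert_le _ _).trans (by simp)) 1)) 1)
  push Not at hb
  obtain ⟨b, hb⟩ := hb
  simp only [Finset.mem_insert, Finset.mem_singleton, not_or] at hb
  obtain ⟨hb1, hbt, hba, hbta⟩ := hb
  -- products with `a` that are not in the cyclic group have square `t`
  have key : ∀ c : Q, c ≠ 1 → c ≠ t → c ≠ a → c ≠ t * a → c * c = t ∧ a * c * (a * c) = t := by
    intro c h1 h2' h3 h4'
    refine ⟨(hsq c).resolve_left fun h => (ht c h).elim h1 h2', (hsq _).resolve_left fun h => ?_⟩
    rcases ht _ h with e | e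
    · refine h4' ?_
      rw [eq_inv_of_mul_eq_one_right e]
      exact inv_eq_of_mul_eq_one_right (by rw [← mul_assoc, htc a, mul_assoc, ha2, htt])
    · exact h3 (mul_left_cancel (e.trans ha2.symm))
  obtain ⟨hb2, hab⟩ := key b hb1 hbt hba hbta
  have hba' := anti a b ha2 hb2 hab
  have hall : ∀ c : Q, c ∈ [1, t, a, t * a, b, t * b, a * b, t * (a * b)].toFinset := by
    intro c
    simp only [List.toFinset_cons, List.toFinset_nil, insert_empty_eq, Finset.mem_insert,
      Finset.mem_singleton]
    by_contra hc
    simp only [not_or] at hc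
    obtain ⟨c1, c2, c3, c4, c5, c6, c7, c8⟩ := hc
    obtain ⟨hc2, hac⟩ := key c c1 c2 c3 c4
    have hca := anti a c ha2 hc2 hac
    have hbc : b * c * (b * c) = t := by
      refine (hsq _).resolve_left fun h => ?_
      rcases ht _ h with e | e
      · refine c6 ?_
        rw [eq_inv_of_mul_eq_one_right e]
        exact inv_eq_of_mul_eq_one_right (by rw [← mul_assoc, htc b, mul_assoc, hb2, htt])
      · exact c5 (mul_left_cancel (e.trans hb2.symm))
    have hcb := anti b c hb2 hc2 hbc
    have hz : a * b * c * (a * b * c) = 1 := by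
      calc a * b * c * (a * b * c) = a * b * (c * a) * b * c := by simp only [mul_assoc]
        _ = a * (b * t) * a * (c * b) * c := by rw [hca]; simp only [mul_assoc]
        _ = a * (t * b) * a * (t * (b * c)) * c := by rw [htc b, hcb]
        _ = (a * t) * (b * a) * t * b * (c * c) := by simp only [mul_assoc]
        _ = (t * a) * (t * (a * b)) * (t * b) * t := by rw [htc a, hba', hc2]; simp only [mul_assoc]
        _ = t * (a * t) * a * (b * t) * b * t := by simp only [mul_assoc]
        _ = t * (t * a) * a * (t * b) * b * t := by rw [htc a, htc b]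
        _ = (t * t) * (a * a) * t * (b * b) * t := by simp only [mul_assoc]
        _ = 1 := by rw [htt, ha2, hb2, one_mul, htt, one_mul, htt]
    rcases ht _ hz with e | e
    · -- `c = (ab)⁻¹`
      refine c8 ?_
      rw [eq_inv_of_mul_eq_one_right e]
      exact inv_eq_of_mul_eq_one_right (by rw [← mul_assoc, htc (a * b), mul_assoc, hab, htt])
    · exact c7 (mul_left_cancel (e.trans hab.symm))
  rw [Nat.card_eq_fintype_card]
  refine (Finset.card_le_card (s := Finset.univ) fun x _ => hall x).trans ?_
  exact List.toFinset_card_le _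

end CfsgLib.Geometric.SUThree.Singer
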